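import Cfsg.Agent.H63.KgvSpec
import Mathlib.FieldTheory.Finite.Extension

/-! Tower KGV, job PB: the non-split product formula. -/

set_option autoImplicit false

namespace H86.KgvPB

open Polynomial Finset H63.Kgv

/-- summation over `r`-th powers -/
theorem sum_pow {L : Type*} [Field L] [Fintype L] (τ : MulChar L ℂ) (r : ℕ) (hr : r.Prime) (ζ : L)
    (hζ : IsPrimitiveRoot ζ r) (h1 : τ ≠ 1) (h2 : ∀ a, a ≠ 0 → τ a ^ r = 1) (f : L → ℂ) (h0 : f 0 = 0) :
    ∑ a : L, f (a ^ r) = ∑ i ∈ range r, ∑ b : L, τ b ^ i * f b := by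
  classical
  have := Fact.mk hr
  obtain ⟨g, hg⟩ := IsCyclic.exists_monoid_generator (α := Lˣ)
  have hτg : τ g ≠ 1 := fun e => h1 (MulChar.ext fun a => by
    obtain ⟨k, rfl⟩ := hg a
    simp [e])
  have ho : orderOf (τ g) = r := orderOf_eq_prime (h2 _ g.ne_zero) hτg
  rw [sum_comm, ← sum_fiberwise_of_maps_to (s := univ) (t := univ) (g := fun a : L => a ^ r)
    (fun _ _ => mem_univ _)]
  refine sum_congr rfl fun b _ => ?_
  rw [sum_congr rfl (g := fun _ => f b) (fun a ha => by rw [(mem_filter.1 ha).2]), sum_const, ← sum_mul,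
    nsmul_eq_mul]
  by_cases hb : b = 0
  · rw [hb, h0, mul_zero, mul_zero]
  congr 1
  have e : (univ.filter fun a : L => a ^ r = b) = (nthRoots r b).toFinset := by
    ext a; simp [mem_nthRoots hr.pos]
  rw [e, Multiset.toFinset_card_of_nodup (hζ.nthRoots_nodup hb), hζ.card_nthRoots]
  by_cases hτ : τ b = 1
  · obtain ⟨k, hk⟩ := hg (Units.mk0 b hb)
    have hk' : (g : L) ^ k = b := by simpa using congrArg Units.val hk
    have : r ∣ k := ho ▸ orderOf_dvd_of_pow_eq_one (by rw [← map_pow, hk', hτ])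
    obtain ⟨c, rfl⟩ := this
    rw [if_pos ⟨(g : L) ^ c, by rw [← hk', ← pow_mul, mul_comm]⟩]
    simp [hτ]
  · rw [if_neg]
    · have := mul_geom_sum (τ b) r
      rw [h2 b hb, sub_self] at this
      rw [(mul_eq_zero.1 this).resolve_left (sub_ne_zero.2 hτ)]; simp
    · rintro ⟨a, rfl⟩
      exact hτ (by rw [map_pow]; exact h2 a fun e => hb (by rw [e, zero_pow hr.ne_zero]))

theorem job : JPB := by
  intro nw1 nw2 pw1 pw2 F L _ _ _ _ _ ψ χ η r ω hr hL hω hχ hη hne
  classical
  have := Fact.mk hr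
  have mu := (pw1 F).2.1 ψ χ r
  have hω1 : ω ≠ 1 := fun e => hχ (by rw [e, map_one])
  have hω0 : ω ≠ 0 := fun e => by rw [e, zero_pow hr.ne_zero] at hω; exact zero_ne_one hω
  have oω : orderOf ω = r := orderOf_eq_prime hω hω1
  have oχ : orderOf (χ ω) = r := orderOf_eq_prime (by rw [← map_pow, hω, map_one]) hχ
  obtain ⟨p, hp⟩ := CharP.exists F
  have : Fact p.Prime := ⟨CharP.char_is_prime F p⟩
  have van : ∀ m, m + 1 < r → sm (lam ψ χ r) (m + 1) = 0 := by
    intro m hm
    let E := FiniteField.Extension F p (m + 1)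
    have : Fintype E := Fintype.ofFinite E
    have hE : Module.finrank F E = m + 1 := FiniteField.finrank_extension F p (m + 1)
    rw [← hE, ← nw2 F E _ mu, sum_congr rfl fun a _ => pw2 pw1 F E ψ χ r a hr.pos]
    set S := ∑ a : E, ψ (Algebra.trace F E (a ^ r)) * χ (Algebra.norm F a) with hS
    have w0 : algebraMap F E ω ≠ 0 := by simpa using hω0
    have e : S = χ ω ^ (m + 1) * S := by
      rw [hS, mul_sum, ← Equiv.sum_comp (Equiv.mulLeft₀ _ w0)]
      refine sum_congr rfl fun a _ => ?_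
      rw [Equiv.mulLeft₀_apply, mul_pow, ← map_pow (algebraMap F E), hω, map_one, one_mul,
        map_mul (Algebra.norm F), Algebra.norm_algebraMap, hE, map_mul χ, map_pow χ]
      ring
    have ne : χ ω ^ (m + 1) ≠ 1 := pow_ne_one_of_lt_orderOf (Nat.succ_ne_zero m) (oχ ▸ hm)
    by_contra h0
    exact ne (mul_right_cancel₀ h0 (by rw [← e, one_mul]))
  obtain ⟨a0, nw⟩ := nw1 F _ mu
  have e1 : (r : ℂ) * an (lam ψ χ r) r = sm (lam ψ χ r) r := by
    obtain ⟨s, rfl⟩ : ∃ s, r = s + 1 := ⟨r - 1, (Nat.succ_pred_eq_of_pos hr.pos).symm⟩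
    rw [nw, sum_range_succ, sum_eq_zero fun m hm => by
      rw [van m (Nat.succ_lt_succ (mem_range.1 hm)), zero_mul], Nat.sub_self, a0, zero_add, mul_one]
  set q := Fintype.card F with hq
  have q1 : q - 1 + 1 = q := Nat.succ_pred_eq_of_pos Fintype.card_pos
  have q0 : q - 1 ≠ 0 := (Nat.sub_pos_of_lt Fintype.one_lt_card).ne'
  have rq : r ∣ q - 1 := oω ▸ orderOf_dvd_of_pow_eq_one (FiniteField.pow_card_sub_one_eq_one ω hω0)
  set τ := η ^ (q - 1) with hτ
  have τv : ∀ a, τ a = η a ^ (q - 1) := fun a => MulChar.pow_apply' η q0 a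
  have τr : ∀ a, a ≠ 0 → τ a ^ r = 1 := fun a ha => by
    rw [τv, ← pow_mul, mul_comm, pow_mul, hη, ← map_pow,
      FiniteField.pow_card_sub_one_eq_one _ (Algebra.norm_ne_zero_iff.2 ha), map_one]
  have prim : IsPrimitiveRoot (algebraMap F L ω) r :=
    (oω ▸ IsPrimitiveRoot.orderOf ω).map_of_injective (algebraMap F L).injective
  have step : ∀ i : ℕ, ∑ b : L, τ b ^ i * (η b * ψ (Algebra.trace F L b)) =
      ∑ b : L, η b * ψ (Algebra.trace F L b) := by
    intro i
    induction i with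
    | zero => simp
    | succ i ih =>
      let σ := FiniteField.frobeniusAlgEquivOfAlgebraic F L
      rw [← ih, ← σ.toEquiv.sum_comp fun b => τ b ^ i * (η b * ψ (Algebra.trace F L b))]
      refine sum_congr rfl fun b _ => ?_
      have s1 : σ.toEquiv b = b ^ q := rfl
      have s2 : Algebra.trace F L (σ.toEquiv b) = Algebra.trace F L b :=
        Algebra.trace_eq_of_algEquiv σ b
      rw [s2, s1]
      by_cases hb : b = 0
      · rw [hb, zero_pow Fintype.card_ne_zero, MulChar.map_zero η]; simp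
      have s3 : τ b ^ q = τ b := by
        obtain ⟨c, hc⟩ := rq
        rw [← q1, pow_succ, hc, pow_mul, τr b hb, one_pow, one_mul]
      have s4 : η b ^ q = τ b * η b := by rw [τv, ← pow_succ, q1]
      rw [map_pow, map_pow, s3, s4]; ring
  have e2 : sm (lam ψ χ r) r = r * ∑ b : L, η b * ψ (Algebra.trace F L b) := by
    have := sum_pow τ r hr _ prim hne τr (fun b => η b * ψ (Algebra.trace F L b))
      (by rw [MulChar.map_zero, zero_mul])
    rw [sum_congr rfl fun i _ => step i, sum_const, card_range, nsmul_eq_mul] at this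
    rw [← this]
    conv_lhs => enter [2]; rw [← hL]
    rw [← nw2 F L _ mu]
    refine sum_congr rfl fun a _ => ?_
    rw [pw2 pw1 F L ψ χ r a hr.pos, map_pow η, hη, mul_comm]
  exact mul_left_cancel₀ (Nat.cast_ne_zero.2 hr.ne_zero : (r : ℂ) ≠ 0) (by rw [e1, e2])

end H86.KgvPB
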