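/- Tensor-induced subgroups with orthogonal factors of dimension three: jobs END and PW. -/
import Cfsg.Agent.H60.WrO3Spec
import Cfsg.Agent.H59.WrEnd

set_option autoImplicit false

namespace H86.O3
open Cfsg Cfsg.Geo Matrix H19 Module H60 H60.Wr H56 QuadraticMap
open scoped MatrixGroups

universe u

variable {F : Type u} [Field F] {B : Frm (Fin 3) F}

theorem sy (H : O3 B) (x y : Fin 3 → F) : B.f x y = B.f y x := by
  rw [B.symm, H.sig, H.eps, one_mul]

/-- Decomposition of a vector in a frame. -/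
theorem dec {w w' v : Fin 3 → F}
    (h : rf B w w' + rf B w' w + (B.f v v)⁻¹ • rf B v v = 1) (x : Fin 3 → F) :
    x = B.f x w' • w + B.f x w • w' + ((B.f v v)⁻¹ * B.f x v) • v := by
  have := congrArg (· *ᵥ x) h
  simpa only [add_mulVec, smul_mulVec, Wr.rf_mulVec, one_mulVec, smul_smul] using this.symm

theorem eich' (H : O3F B) {w : Fin 3 → F} (hw : w ∈ IsoV B) {v : Fin 3 → F} (hv : B.f v w = 0) :
    ∃ s ∈ G0 B, (s : Mk 3 F) = 1 + rf B w v - B.ε • rf B v w - (B.f v v / 2) • rf B w w := by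
  obtain ⟨s, hs, e⟩ := H.eich w hw v hv
  exact ⟨s, hs, by rw [e, eu, H.eps, one_smul, add_sub_assoc 1 (rf B w v)]⟩

theorem jobO3End : JobO3End.{u} := by
  intro F _ _ t B M Q hC hQ _ hR
  set N := M.comap (toGL Q) with hN
  have cm : ∀ {u v}, B.f u v = 0 → B.f v u = 0 := B.eq_zero_comm.1
  have cm' : ∀ {u v}, B.f u v ≠ 0 → B.f v u ≠ 0 := fun h h' => h (cm h')
  have one : ∀ {u v}, B.f u v = 1 → B.f u v ≠ 0 := fun h => h ▸ one_ne_zero
  have p0 : ∀ x, (∀ j, x j ∈ IsoV B) → ∀ d y, B.f y (x d) = 0 →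
      pv (Function.update x d y) ∈ AS N (pv x) := fun x hx d y hy => by
    obtain ⟨e, he⟩ := H59.WrEnd.exists_ne' hC.t2 d
    refine H59.WrEnd.mem_AS_of hQ (hQ.sing x d (hx d).2) (hQ.sing _ e (by
      rw [Function.update_of_ne he]; exact (hx e).2)) (H59.WrEnd.pol_zero hQ (j := d) (by
        simpa using cm hy)) fun c => ?_
    obtain ⟨m, hm, hme⟩ := hR d x hx y hy c
    refine ⟨m, hm, fun v => ?_⟩
    rw [hme, neg_one_smul, ← sub_eq_add_neg, add_mulVec, one_mulVec, smul_mulVec,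
      H59.WrEnd.pure_update_rf]
  have p1 : ∀ x, (∀ j, x j ∈ IsoV B) → ∀ d a, a d = x d → pv a ∈ AS N (pv x) := by
    intro x hx d a ha
    refine H59.WrEnd.pv_mem _
      (fun j => if j = d then {x d} else {y | y ∈ IsoV B ∧ B.f (x j) y ≠ 0})
      (fun a ha => ?_) a fun j => ?_
    swap
    · split_ifs with h
      · subst h; exact Submodule.subset_span ha
      · rw [hC.f.sp _ (hx j).1]; trivial
    have had : a d = x d := by simpa using ha d
    have haj : ∀ j, j ≠ d → a j ∈ IsoV B ∧ B.f (x j) (a j) ≠ 0 := fun j hj => by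
      simpa [hj] using ha j
    have hai : ∀ j, a j ∈ IsoV B := fun j => by
      by_cases h : j = d
      · rw [h, had]; exact hx d
      · exact (haj j h).1
    obtain ⟨w', hw', e⟩ := hC.f.hyp _ (hx d)
    obtain ⟨v, v1, -, v0, -⟩ := hC.f.frame _ (hx d) w' hw' e
    refine H59.WrEnd.move hQ (p0 x hx d v v1) (p0 a hai d v (had ▸ v1)) (i₂ := d) (i₃ := d)
      (i₄ := d) (hai d).2 (had ▸ (hx d).2) (by simpa using v1) (by simpa [had] using cm v1)
      fun j => ?_
    by_cases h : j = d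
    · subst h; simpa using v0
    · simpa [Function.update_of_ne h] using cm' (haj j h).2
  have p3 : ∀ x, (∀ j, x j ∈ IsoV B) → ∀ a d, B.f (a d) (x d) = 0 → pv a ∈ AS N (pv x) := by
    intro x hx a d hd
    obtain ⟨e, he⟩ := H59.WrEnd.exists_ne' hC.t2 d
    refine H59.WrEnd.pv_mem _
      (fun j => if j = e then {y | y ∈ IsoV B ∧ B.f (x j) y ≠ 0} else {a j})
      (fun b hb => ?_) a fun j => ?_
    swap
    · split_ifs with h
      · rw [hC.f.sp _ (hx j).1]; trivial
      · exact Submodule.subset_span rfl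
    have hbd : b d = a d := by simpa [he.symm] using hb d
    obtain ⟨h1, h2⟩ : b e ∈ IsoV B ∧ B.f (x e) (b e) ≠ 0 := by simpa using hb e
    set A := Function.update x e (b e) with hA
    have hAi : ∀ j, A j ∈ IsoV B :=
      H59.WrEnd.forall_update (P := fun _ w => w ∈ IsoV B) h1 fun j _ => hx j
    have hAd : A d = x d := Function.update_of_ne he.symm _ _
    have hAe : A e = b e := Function.update_self _ _ _
    choose z hz using fun j => Wr.exists_f_one (B := B) (hAi j).1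
    have k1 := p1 A hAi e b hAe.symm
    have k2 := p1 x hx d A hAd
    have k3 := p1 x hx e (Function.update z e (x e)) (Function.update_self _ _ _)
    have k4 := apply_mem_AS_of_fix (eich_mem_of_AS k1) (eich_apply_of_orth_orth
      (H59.WrEnd.pol_zero hQ (j := d) (hAd ▸ (hx d).2))
      (H59.WrEnd.pol_zero hQ (j := d) (hbd ▸ hd))) k3
    have k5 : polar Q (pv A) (pv (Function.update z e (x e))) ≠ 0 :=
      H59.WrEnd.pol_ne hQ fun j => by
        by_cases h : j = e
        · subst h; simpa [hAe] using cm' h2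
        · simpa [Function.update_of_ne h] using cm' (one (hz j))
    rw [eich_apply (hQ.sing A d (hAi d).2) k1.1, hQ.sing b e h1.2, zero_mul, zero_smul,
      sub_zero] at k4
    have k6 := (AS N (pv x)).sub_mem ((AS N (pv x)).add_mem k3 ((AS N (pv x)).smul_mem
      (polar Q (pv b) (pv (Function.update z e (x e)))) k2)) k4
    rwa [sub_sub_cancel, Submodule.smul_mem_iff _ k5] at k6
  have full : ∀ x, (∀ j, x j ∈ IsoV B) → Full N (pv x) := fun x hx => by
    choose b hb using fun j => Wr.exists_f_one (B := B) (hx j).1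
    exact H59.WrEnd.full_of_pure hQ hb (p3 x hx)
  obtain ⟨w, hw⟩ := hC.f.ex
  obtain ⟨w', hw', hww⟩ := hC.f.hyp w hw
  exact H59.WrEnd.le_of_full hQ (le_trans (by norm_num : 5 ≤ 3 ^ 2)
    (Nat.pow_le_pow_right (by omega) hC.t2))
    (i := ⟨0, by have := hC.t2; omega⟩) hw.2 hw'.2 (fun _ => one hww) (full _ fun _ => hw)
    (full _ fun _ => hw')

theorem four {E : Type*} [AddCommGroup E] [Module F E] (H : O3 B) {c₁ c₂ c₃ c₄ : E}
    (h : ∀ s : F, s • c₁ + s ^ 2 • c₂ + s ^ 3 • c₃ + s ^ 4 • c₄ = 0) : c₃ = 0 ∧ c₄ = 0 := by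
  obtain ⟨a, a0, a1⟩ := H.big
  have h1 : (2 * a * (a ^ 2 - 1)) • c₃ = 0 := by
    linear_combination (norm := module) h a - h (-a) - a • (h 1 - h (-1))
  have h2 : (2 * a ^ 2 * (a ^ 2 - 1)) • c₄ = 0 := by
    linear_combination (norm := module) h a + h (-a) - a ^ 2 • (h 1 + h (-1))
  exact ⟨(smul_eq_zero.1 h1).resolve_left
    (mul_ne_zero (mul_ne_zero H.two a0) (sub_ne_zero.2 a1)), (smul_eq_zero.1 h2).resolve_left
    (mul_ne_zero (mul_ne_zero H.two (pow_ne_zero _ a0)) (sub_ne_zero.2 a1))⟩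

theorem jobO3PW : JobO3PW.{u} := by
  intro F _ _ t B M H ql i w hw m hm hf
  have sy := sy H.f.toO3
  refine T4 fun j hj => InC.of_comm (S := {b | ∃ x ∈ IsoV B, ∃ y, B.f y x = 0 ∧ b = eu B x y})
    (fun X hX => H.f.cent X fun x hx y hy => hX _ ⟨x, hx, y, hy, rfl⟩) ?_
  rintro _ ⟨x, hx, y, hy, rfl⟩
  obtain ⟨x', hx', e⟩ := H.f.hyp x hx
  obtain ⟨v, v1, v2, v0, hv⟩ := H.f.frame x hx x' hx' e
  have eu1 : ∀ s : F, eu B x (s • v) =
      1 + s • (rf B x v - rf B v x) + s ^ 2 • (-(B.f v v / 2) • rf B x x) := fun s => by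
    rw [eu, rf_smul_right, H.f.sig, show rf B (s • v) x = s • rf B v x from ro_smul_left _ _ _,
      B.smul_left, B.smul_right, H.f.sig]
    module
  have key : ∀ s : F, ∃ D : EE 3 t F, InC j D ∧
      cj m⁻¹ (em j (eu B x (s • v))) = D * em j (eu B x (s • v)) := fun s => by
    obtain ⟨c, hc, ec⟩ :=
      ((H.f.eich x hx (s • v) (by rw [B.smul_left, v1, mul_zero])).mono H.gam).em j
    have hc' : InC i (c : EE 3 t F) := ec ▸ InC.em hj.symm _
    obtain ⟨h1, -⟩ := pw0 hw.1 (J := pp B w) hw.2 (fun m hm h => sub_mem_LS_pp (H.le hm) h)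
      (fun ψ h => by
        obtain ⟨u, rfl⟩ := exists_ph B ψ
        rw [ph_dot] at h
        obtain ⟨s, hs, e⟩ := H.f.eich w hw u (B.eq_zero_comm.1 h)
        refine ⟨s, H.gam hs, fun v hv => ?_⟩
        simp [e, eu, sub_mulVec, add_mulVec, smul_mulVec, Wr.rf_mulVec, mem_pp.1 hv, ph_dot])
      (ql i w hw) hm hf hc hc'
    refine ⟨_, h1.inC hj, ?_⟩
    rw [← ec, ← Units.val_mul, inv_mul_cancel_right, cj_coe, inv_inv]
  choose D hD eD using key
  have x'x : B.f x' x = 1 := by rw [sy, e]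
  have k1 : ∀ s, D s = 1 + s • ct j (ph B x') x (cj m⁻¹ (em j (rf B x v - rf B v x))) +
      s ^ 2 • ct j (ph B x') x (cj m⁻¹ (em j (-(B.f v v / 2) • rf B x x))) := fun s => by
    have h1 := congrArg (ct j (ph B x') x) (eD s)
    rw [← hD s, ct_em_mul (hD s), eu1] at h1
    simp only [map_add, map_one, map_smul _ s, map_smul _ (s ^ 2), ct_add, ct_smul, ct_one, ph_dot,
      e, add_mulVec, smul_mulVec, sub_mulVec, one_mulVec, Wr.rf_mulVec, hx.2, sy x v, v1, zero_smul,
      smul_zero, sub_zero, add_zero, one_smul] at h1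
    exact h1.symm
  have k2 : ∀ s, s • ct j (ph B x') x' (cj m⁻¹ (em j (rf B x v - rf B v x))) +
      s ^ 2 • ct j (ph B x') x' (cj m⁻¹ (em j (-(B.f v v / 2) • rf B x x))) =
      (s ^ 2 * -(B.f v v / 2)) • D s := fun s => by
    have h1 := congrArg (ct j (ph B x') x') (eD s)
    rw [← hD s, ct_em_mul (hD s), eu1] at h1
    simp only [map_add, map_one, map_smul _ s, map_smul _ (s ^ 2), ct_add, ct_smul, ct_one, ph_dot,
      e, add_mulVec, smul_mulVec, sub_mulVec, one_mulVec, Wr.rf_mulVec, hx'.2, sy x' v, v2, x'x,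
      zero_smul, one_smul, zero_add, zero_sub, B.add_left, B.smul_left, B.neg_left, neg_zero,
      mul_zero, mul_one] at h1
    exact h1
  generalize ct j (ph B x') x (cj m⁻¹ (em j (rf B x v - rf B v x))) = α at k1
  generalize ct j (ph B x') x (cj m⁻¹ (em j (-(B.f v v / 2) • rf B x x))) = β at k1
  generalize ct j (ph B x') x' (cj m⁻¹ (em j (rf B x v - rf B v x))) = R₁ at k2
  generalize ct j (ph B x') x' (cj m⁻¹ (em j (-(B.f v v / 2) • rf B x x))) = R₂ at k2
  have n0 : B.f v v / 2 ≠ 0 := div_ne_zero v0 H.f.two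
  obtain ⟨k3, k4⟩ := four H.f.toO3 (c₁ := R₁) (c₂ := R₂ + (B.f v v / 2) • 1)
    (c₃ := (B.f v v / 2) • α) (c₄ := (B.f v v / 2) • β) fun s => by
      have := k2 s
      rw [k1] at this
      linear_combination (norm := module) this
  have k5 : eu B x y = eu B x (((B.f v v)⁻¹ * B.f y v) • v) := by
    have h1 := dec hv y
    rw [hy, zero_smul, add_zero] at h1
    generalize B.f y x' = a at h1
    generalize (B.f v v)⁻¹ * B.f y v = s at h1
    rw [h1, eu, eu]
    simp only [rf_add_right, rf_smul_right, H.f.sig, ro_add_left, ro_smul_left, B.add_left,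
      B.add_right, B.smul_left, B.smul_right, hx.2, v1, sy x v, mul_zero, zero_add, add_zero]
    abel
  have k6 := eD ((B.f v v)⁻¹ * B.f y v)
  rw [k1, (smul_eq_zero.1 k3).resolve_left n0, (smul_eq_zero.1 k4).resolve_left n0, smul_zero,
    smul_zero, add_zero, add_zero, one_mul, ← k5, cj_eq_iff] at k6
  exact (Commute.units_inv_left_iff.1 k6).symm

end H86.O3
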