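/- Tensor-induced subgroups with orthogonal factors of dimension three: job QL. -/
import Cfsg.Agent.H86.O3End
import Cfsg.Agent.H49.C7BQL

set_option autoImplicit false

namespace H86.O3
open Cfsg Cfsg.Geo Matrix H19 Module H60.Wr H49.BQL
open scoped MatrixGroups

universe u

variable {F : Type u} [Field F] {B : Frm (Fin 3) F} {t : ℕ} {M : Subgroup (GG 3 t F)} {i : Fin t}
  {w φ v : Fin 3 → F} {m : GG 3 t F}

theorem shape (H : O3F B) {ν : Mk 3 F} (h : ν ∈ RN B ∪ RS B) :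
    ∃ (N : Mk 3 F) (s : GL (Fin 3) F), s ∈ G0 B ∧ N * ν = 0 ∧ N * cj s ν * ν ≠ 0 := by
  have sy := sy H.toO3
  have main : ∀ w ∈ IsoV B, ∃ w' ∈ IsoV B, B.f w w' = 1 ∧ ∃ s ∈ G0 B, s ∈ B.Iso ∧ ∃ c : F,
      c ≠ 0 ∧ (s : Mk 3 F) *ᵥ w = c • w' := fun w hw => by
    obtain ⟨w', hw', e⟩ := H.hyp w hw
    obtain ⟨s, hs, c, hc⟩ := H.tr w hw w' hw'
    refine ⟨w', hw', e, s, hs, comm_le _ hs, c, ?_, hc⟩
    rintro rfl
    exact hw.1 (toLin'_inj s (by simpa using hc))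
  rcases h with ⟨w, hw, rfl⟩ | ⟨w, hw, v, h1, h2, rfl⟩
  · obtain ⟨w', -, e, s, hs, hi, c, c0, hc⟩ := main w hw
    refine ⟨rf B w w, s, hs, by rw [rf_mul_rf, hw.2, zero_smul], ?_⟩
    rw [cj_rf hi, hc, rf_mul_rf, smul_mul_assoc, rf_mul_rf, B.smul_left, B.smul_right, H.sig,
      sy w', e, mul_one]
    exact smul_ne_zero c0 (smul_ne_zero c0 (rf_ne_zero hw.1 hw.1))
  · obtain ⟨w', hw', e, s, hs, hi, c, c0, hc⟩ := main w hw
    obtain ⟨v₀, v1, v2, v0, hv⟩ := H.frame w hw w' hw' e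
    refine ⟨rf B w w, s, hs, by simp [mul_sub, rf_mul_rf, hw.2, h1], ?_⟩
    have a1 : B.f ((s : Mk 3 F) *ᵥ v) w' = 0 := by
      have := B.mem_Iso.1 hi v w
      rw [hc, B.smul_right, H.sig, h1] at this
      exact (mul_eq_zero.1 this).resolve_left c0
    have a2 : (s : Mk 3 F) *ᵥ v ∉ F ∙ w' := fun h => by
      obtain ⟨r, hr⟩ := Submodule.mem_span_singleton.1 h
      refine h2 (Submodule.mem_span_singleton.2 ⟨r * c⁻¹, toLin'_inj s ?_⟩)
      rw [toLin'_apply, toLin'_apply, mulVec_smul, hc, smul_smul, inv_mul_cancel_right₀ c0, hr]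
    rw [map_sub, cj_rf hi, cj_rf hi, hc]
    generalize (s : Mk 3 F) *ᵥ v = y at a1 a2
    have b1 := dec hv v
    have b2 := dec hv y
    rw [h1, zero_smul, add_zero] at b1
    rw [a1, zero_smul, zero_add] at b2
    generalize B.f v w' = α at b1
    generalize (B.f v₀ v₀)⁻¹ * B.f v v₀ = β at b1
    generalize B.f y w = γ at b2
    generalize (B.f v₀ v₀)⁻¹ * B.f y v₀ = δ at b2
    have β0 : β ≠ 0 := by
      rintro rfl
      exact h2 (Submodule.mem_span_singleton.2 ⟨α, by rw [b1, zero_smul, add_zero]⟩)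
    have δ0 : δ ≠ 0 := by
      rintro rfl
      exact a2 (Submodule.mem_span_singleton.2 ⟨γ, by rw [b2, zero_smul, add_zero]⟩)
    have f1 : B.f y w = γ := by simp [b2, B.add_left, B.smul_left, sy w', e, v1]
    have f2 : B.f v w' = α := by simp [b1, B.add_left, B.smul_left, e, v2]
    have f3 : B.f v y = α * γ + β * δ * B.f v₀ v₀ := by
      simp only [b1, b2, B.add_left, B.smul_left, B.add_right, B.smul_right, H.sig, e, v2,
        sy w v₀, v1]
      ring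
    have : rf B w w * (rf B (c • w') y - rf B y (c • w')) * (rf B w v - rf B v w) =
        -(c * β * δ * B.f v₀ v₀) • rf B w w := by
      simp only [mul_sub, sub_mul, rf_mul_rf, smul_mul_assoc, B.smul_left, B.smul_right, H.sig,
        sy w', sy w y, e, f1, f2, f3]
      module
    rw [this]
    exact smul_ne_zero (neg_ne_zero.2 (mul_ne_zero (mul_ne_zero (mul_ne_zero c0 β0) δ0) v0))
      (rf_ne_zero hw.1 hw.1)

variable {hφ : φ ⬝ᵥ w = 1} {κ κ' : EE 3 t F}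

theorem KK_adj (H : O3M B M) (hQ : QQ M (RN B)) (hw : w ∈ IsoV B) (h : B.f v w = 0)
    (v0 : B.f v v ≠ 0) (h1 : κ ∈ KK B M i w φ hφ v) (h2 : κ' ∈ KK B M i w φ hφ v) :
    κ' * (B.pow t).adj κ = κ * (B.pow t).adj κ' := by
  obtain ⟨a1, m, a2, a3⟩ := h1
  obtain ⟨b1, m', b2, b3⟩ := h2
  have h3 := hQ i _ ⟨w, hw, rfl⟩ _
    (((b1.mul (a1.adj B)).smul _).sub ((a1.mul (b1.adj B)).smul _))
    (a2.comm_pure H.le b2 hφ h h a1 b1 a3 b3)
  rw [← smul_sub, H.f.sig] at h3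
  obtain ⟨c, hc⟩ := h3.of_smul v0
  have h4 := congrArg (B.pow t).adj hc
  rw [Frm.adj_sub, Frm.adj_mul, Frm.adj_mul, Frm.adj_adj, Frm.adj_adj, Frm.adj_smul, pow_sig,
    H.f.sig, Frm.adj_one, ← hc] at h4
  refine smul_right_injective _ H.f.two ?_
  linear_combination (norm := module) -h4

theorem sc_KK (hI : IsoP t (G0 B) ∅ (RN B ∪ RS B)) (H : O3M B M) (hQ : QQ M (RN B))
    (hw : w ∈ IsoV B) (h : B.f v w = 0) (v0 : B.f v v ≠ 0) (h1 : κ ∈ KK B M i w φ hφ v) :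
    Sc κ := by
  have one : (1 : EE 3 t F) ∈ KK B M i w φ hφ v := by
    obtain ⟨s, hs, e⟩ := eich' H.f hw h
    obtain ⟨a1, a2⟩ := InQ.eich (i := i) hw.2 h (H.gam hs) e hφ
    exact ⟨InC.one, _, a1, a2⟩
  have ad : ∀ κ ∈ KK B M i w φ hφ v, (B.pow t).adj κ = κ := fun κ hκ => by
    simpa using KK_adj H hQ hw h v0 hκ one
  by_contra hs
  obtain ⟨J, p, r, ⟨j₁, hj₁⟩, hi, hp, hp', r0, hm⟩ := chain hI
    (fun e => by obtain ⟨N, s, -, -, h2⟩ := shape H.f e; exact h2 (by simp)) i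
    (KK B M i w φ hφ v) (fun j hj s hs X hX => cj_mem_KK hj (H.gam hs) hX) (by simp)
    (fun X hX => hX.1) h1 hs
  have : ∀ j, ∃ (N : Mk 3 F) (s : GL (Fin 3) F), (j ∈ J → s ∈ G0 B ∧ N * p j = 0) ∧
      N * (if j ∈ J then cj s (p j) else p j) * p j ≠ 0 := fun j => by
    by_cases hj : j ∈ J
    · obtain ⟨N, s, a1, a2, a3⟩ := shape H.f (hp j hj)
      exact ⟨N, s, fun _ => ⟨a1, a2⟩, by rwa [if_pos hj]⟩
    · exact ⟨1, 1, fun e => absurd e hj, by simp [hj, hp' j hj]⟩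
  choose N s hS hN using this
  have hm' := cj_pure_mem J hi (fun j hj => H.gam (hS j hj).1) hm
  have h3 := KK_adj H hQ hw h v0 hm hm'
  rw [ad _ hm, ad _ hm', pure_smul_mul, pure_smul_mul] at h3
  have h2 := congrArg (pure N * ·) h3
  simp only [mul_smul_comm, ← pure_mul] at h2
  rw [pure_eq_zero (s := N * (p * _)) (i := j₁) (by
    simp only [Pi.mul_apply, ← mul_assoc, (hS j₁ hj₁).2, zero_mul]), smul_zero] at h2
  exact smul_ne_zero (mul_ne_zero r0 r0) (pure_ne_zero fun j => by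
    simpa only [Pi.mul_apply, ← mul_assoc] using hN j) h2

theorem inA_of_sc (H : O3M B M) (h : InQ M i w (pp B w) m) (hQ : QQ M (RN B))
    (hw : w ∈ IsoV B) (hφ : φ ⬝ᵥ w = 1) (hs : ∀ v, B.f v w = 0 → Sc (phi i φ m v)) :
    InA i (m : EE 3 t F) := by
  obtain ⟨p⟩ : Nonempty (Fin t → Fin 3) := inferInstance
  obtain ⟨x, hx⟩ := exists_f_one (B := B) hw.1
  obtain ⟨χ, hχ⟩ := exists_dot
    { toFun := fun v => phi i φ m (v - B.f v w • x) p p
      map_add' := fun a b => by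
        rw [B.add_left, add_smul, add_sub_add_comm, phi_add, Matrix.add_apply]
      map_smul' := fun r a => by
        rw [B.smul_left, mul_smul, ← smul_sub, phi_smul, Matrix.smul_apply, RingHom.id_apply] }
  obtain ⟨u, rfl⟩ := exists_ph B χ
  have e : ∀ v, B.f v w = 0 → phi i φ m v = B.f v u • 1 := fun v hv => by
    obtain ⟨r, hr⟩ := hs v hv
    rw [← ph_dot, hχ]; simp [hv, hr]
  have hu : B.f u w = 0 := by
    have h1 := h.spec hφ (v := w) hw.2 φ
    rw [h.kill, e w hw.2] at h1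
    rw [B.eq_zero_comm]
    by_contra h0
    exact ro_ne_of_dot hφ ((em_eq_zero (i := i)).1
      ((smul_eq_zero.1 (by simpa using h1.symm)).resolve_left h0))
  obtain ⟨s, hs, es⟩ := eich' H.f hw hu
  obtain ⟨h1, h2⟩ := InQ.eich (i := i) hw.2 hu (H.gam hs) es hφ
  have h3 := h.mul h1.inv
  obtain ⟨γ, g1, g2⟩ := InQ.eq_of_fix H.le (i := i) hw.1 h3.mem fun y hy =>
    (ten 3 F i).LS_induction (p := fun y => ((m * (emG i s)⁻¹ : GG 3 t F) : EE 3 t F) *ᵥ y = y) hy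
      (by simp) (fun a z hz => by
        by_cases z0 : z = 0
        · simp [z0]
        obtain ⟨ψ, hψ⟩ := exists_dot_one z0
        have h4 := h3.spec hφ hz ψ
        rw [h.phi_mul h1.inv hφ hz, h1.phi_inv hφ hz, e z hz, h2 z hz, add_neg_cancel, mul_zero,
          sub_mul, one_mul, sub_eq_zero] at h4
        rw [← em_ro_fix hψ ((ten 3 F i).t_mem_LS a (Submodule.mem_span_singleton_self z)),
          mulVec_mulVec, h4])
      fun a b ha hb => by rw [mulVec_add, ha, hb]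
  have g3 := hQ i _ ⟨w, hw, rfl⟩ γ g1 ⟨_, h3.mem, g2⟩
  have g4 : InA i ((m * (emG i s)⁻¹ : GG 3 t F) : EE 3 t F) :=
    g2 ▸ (Sc.one.inA i).add ((InA.em i _).mul (g3.inA i))
  have g5 := g4.mul (InA.em i (s : Mk 3 F))
  rwa [← coe_emG, ← Units.val_mul, inv_mul_cancel_right] at g5

theorem jobO3QL : JobO3QL.{u} := by
  intro hI F _ _ t B M H hQ i w hw
  obtain ⟨w', hw', e⟩ := H.f.hyp w hw
  obtain ⟨v, v1, -, v0, hv⟩ := H.f.frame w hw w' hw' e
  obtain ⟨φ, hφ⟩ := exists_dot_one hw.1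
  refine QL.of_inQ fun m hm => inA_of_sc H hm hQ hw hφ fun x hx => ?_
  have h0 : phi i φ m w = 0 := hm.phi_eq hφ hw.2 InC.zero (by rw [hm.kill, mul_zero])
  have h1 : ∀ x, B.f x w = 0 → phi i φ m x = B.f x v • (B.f v v)⁻¹ • phi i φ m v := fun x hx => by
    conv_lhs => rw [dec hv x]
    rw [hx, zero_smul, add_zero, phi_add, phi_smul, phi_smul, h0, smul_zero, zero_add, smul_smul,
      mul_comm]
  rw [h1 x hx]
  exact (sc_KK (hφ := hφ) (hI F t B H.f) H hQ hw v1 v0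
    ⟨(phi_inC _ _ _ _).smul _, m, hm, h1⟩).smul _

end H86.O3
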