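import Cfsg.Agent.H97.QPSpec
import Cfsg.Agent.H11.QTC1

/-! Quasithin tower, phase 2: jobs R3 and PX. -/

set_option autoImplicit false

namespace H86.QP

open Cfsg Subgroup H98 H97.NG H97.QP H48.NG H32.NP
open scoped commutatorElement

universe u

theorem gl2_aux : ∀ a b c d : ZMod 3, a * a + b * c = 1 → a * b + b * d = 0 → c * a + d * c = 0 →
    c * b + d * d = 1 → a * d - b * c = 1 →
    (a = 1 ∧ b = 0 ∧ c = 0 ∧ d = 1) ∨ (a = -1 ∧ b = 0 ∧ c = 0 ∧ d = -1) := by decide

theorem gl2_pm {u : GL (Fin 2) (ZMod 3)} (h : u * u = 1) (hd : Matrix.GeneralLinearGroup.det u = 1) :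
    u = 1 ∨ u = -1 := by
  have h1 : u.1 * u.1 = 1 := congrArg Units.val h
  have h2 : u.1.det = 1 := congrArg Units.val hd
  have e := fun i j => congrFun (congrFun h1 i) j
  rw [Matrix.det_fin_two] at h2
  have := gl2_aux (u.1 0 0) (u.1 0 1) (u.1 1 0) (u.1 1 1)
    (by simpa [Matrix.mul_apply, Fin.sum_univ_two] using e 0 0)
    (by simpa [Matrix.mul_apply, Fin.sum_univ_two] using e 0 1)
    (by simpa [Matrix.mul_apply, Fin.sum_univ_two] using e 1 0)
    (by simpa [Matrix.mul_apply, Fin.sum_univ_two] using e 1 1) h2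
  refine this.imp (fun ⟨a, b, c, d⟩ => ?_) fun ⟨a, b, c, d⟩ => ?_ <;> ext i j <;>
    fin_cases i <;> fin_cases j <;> simp [a, b, c, d]

theorem gl2_two {u v : GL (Fin 2) (ZMod 3)} (hu : u * u = 1) (hv : v * v = 1)
    (du : Matrix.GeneralLinearGroup.det u = 1) (dv : Matrix.GeneralLinearGroup.det v = 1) :
    u = 1 ∨ v = 1 ∨ u * v = 1 := by
  rcases gl2_pm hu du with rfl | rfl
  · exact Or.inl rfl
  · rcases gl2_pm hv dv with rfl | rfl <;> simp

/-- `GL₂(3)` has no elementary abelian subgroup of order eight. -/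
theorem gl2_rank {a b c : GL (Fin 2) (ZMod 3)} (ha : a * a = 1) (hb : b * b = 1) (hc : c * c = 1)
    (ab : Commute a b) (ac : Commute a c) (bc : Commute b c) :
    a = 1 ∨ b = 1 ∨ c = 1 ∨ a * b = 1 ∨ a * c = 1 ∨ b * c = 1 ∨ a * b * c = 1 := by
  have sq : ∀ {x y : GL (Fin 2) (ZMod 3)}, x * x = 1 → y * y = 1 → Commute x y →
      x * y * (x * y) = 1 := fun h1 h2 h3 => by rw [h3.symm.mul_mul_mul_comm, h1, h2, one_mul]
  have pm : ∀ x : (ZMod 3)ˣ, x = 1 ∨ x = -1 := by decide
  have m : ∀ {x y : GL (Fin 2) (ZMod 3)}, Matrix.GeneralLinearGroup.det x = -1 →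
      Matrix.GeneralLinearGroup.det y = -1 → Matrix.GeneralLinearGroup.det (x * y) = 1 :=
    fun h1 h2 => by rw [map_mul, h1, h2]; simp
  rcases pm (Matrix.GeneralLinearGroup.det a) with da | da <;>
    rcases pm (Matrix.GeneralLinearGroup.det b) with db | db <;>
    rcases pm (Matrix.GeneralLinearGroup.det c) with dc | dc
  · have := gl2_two ha hb da db; rcases this with e | e | e <;> simp only [e, true_or, or_true]
  · have := gl2_two ha hb da db; rcases this with e | e | e <;> simp only [e, true_or, or_true]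
  · have := gl2_two ha hc da dc; rcases this with e | e | e <;> simp only [e, true_or, or_true]
  · have := gl2_two ha (sq hb hc bc) da (m db dc)
    rw [← mul_assoc] at this; rcases this with e | e | e <;> simp only [e, true_or, or_true]
  · have := gl2_two hb hc db dc; rcases this with e | e | e <;> simp only [e, true_or, or_true]
  · have := gl2_two hb (sq ha hc ac) db (m da dc)
    rw [← mul_assoc, ← ab.eq] at this; rcases this with e | e | e <;> simp only [e, true_or, or_true]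
  · have := gl2_two (sq ha hb ab) hc (m da db) dc; rcases this with e | e | e <;> simp only [e, true_or, or_true]
  · have := gl2_two (sq ha hb ab) (sq hb hc bc) (m da db) (m db dc)
    rw [mul_assoc, ← mul_assoc b, hb, one_mul] at this; rcases this with e | e | e <;> simp only [e, true_or, or_true]

variable {G : Type*} [Group G] [Finite G] {Y : Type*} [Group Y]

/-- A `2`-group acting on a `3`-section of a group of `3`-rank at most two. -/
theorem sec_gl2 (hG : PRankLE 3 2 G) (φ : G →* Y) (hφ : Function.Surjective φ) {A B : Subgroup Y}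
    (hA : IsPGroup 3 A) (hB : IsPGroup 2 B) (hn : B ≤ normalizer (A : Set Y)) :
    ∃ (T : Subgroup G) (ψ : T →* GL (Fin 2) (ZMod 3)), B ≤ T.map φ ∧ (∀ t : T, φ t = 1 → ψ t = 1) ∧
      ∀ t : T, ψ t = 1 → φ t ∈ centralizer (A : Set Y) := by
  have : Fact (Nat.Prime 3) := ⟨Nat.prime_three⟩
  obtain ⟨P, hP⟩ := exists_isSyl 3 (A.comap φ)
  have h1 : P.map φ = A := by
    have := hP.map φ
    rw [map_comap_eq_self_of_surjective hφ] at this
    exact this.eq_of_isPGroup hA
  obtain ⟨T, hT⟩ := exists_isSyl 2 (normalizer (P : Set G) ⊓ B.comap φ)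
  have h2 : (normalizer (P : Set G) ⊓ B.comap φ).map φ = B := by
    refine le_antisymm ((map_mono inf_le_right).trans (map_comap_le _ _)) fun b hb => ?_
    obtain ⟨n, rfl⟩ := hφ b
    obtain ⟨a, ha, k, hk, rfl⟩ := hP.frattini_mem (comap_le_normalizer_comap φ hn hb)
    obtain ⟨p, hp, e⟩ := h1.ge hk
    have e' : φ (a * p) = φ (a * k) := by rw [map_mul, map_mul, e]
    exact ⟨a * p, mem_inf.2 ⟨mul_mem ha (le_normalizer hp), by rw [mem_comap, e']; exact hb⟩, e'⟩
  have h3 := hT.map φ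
  rw [h2] at h3
  have hTP : T ≤ normalizer (P : Set G) := hT.le.trans inf_le_left
  have h4 : A ≤ (P ⊓ centralizer ((T ⊓ φ.ker : Subgroup G) : Set G)).map φ := by
    refine h1.ge.trans ((map_mono (commutator_sup_centralizer_eq (A := T ⊓ φ.ker) (K := P)
      (hT.isPGroup.to_le inf_le_left) ?_ (inf_le_left.trans hTP)).ge).trans ?_)
    swap
    · rw [Subgroup.map_sup, map_commutator,
        (Subgroup.map_eq_bot_iff _).2 (inf_le_right : T ⊓ φ.ker ≤ _), commutator_bot_right,
        bot_sup_eq]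
    obtain ⟨k, hk⟩ := IsPGroup.iff_card.1 hP.isPGroup
    rw [hk]
    exact fun e => by have := Nat.prime_two.dvd_of_dvd_pow e; omega
  obtain ⟨ψ, a1, a2⟩ := H11.QT.exists_gl2 (r := 3) (by decide) (hP.isPGroup.to_le inf_le_left)
    (H48.pRankLE_subgroup hG _) (le_normalizer_inf hTP (le_normalizer_centralizer
      (le_normalizer_inf le_normalizer (le_normalizer_of_normal (H := φ.ker)))))
  refine ⟨T, ψ, (h3.eq_of_isPGroup hB).ge, fun t ht => a1 t fun y hy => (hy.2 t ⟨t.2, ht⟩).symm,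
    fun t ht => ?_⟩
  obtain ⟨k, hk⟩ := a2 t ht
  obtain ⟨m, hm⟩ := isPGroup_iff_forall.1 hT.isPGroup t t.2
  exact H98.centralizer_anti h4 (map_le_centralizer_map φ le_rfl (mem_map_of_mem φ
    (mem_of_pow_odd (m := m) (Odd.pow (by decide)) hk (hm ▸ one_mem _))))

theorem sec_rank (hG : PRankLE 3 2 G) (φ : G →* Y) (hφ : Function.Surjective φ) {A : Subgroup Y}
    (hA : IsPGroup 3 A) {a b c : Y} (ha : a * a = 1) (hb : b * b = 1) (hc : c * c = 1)
    (ab : Commute a b) (ac : Commute a c) (bc : Commute b c) (na : a ∈ normalizer (A : Set Y))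
    (nb : b ∈ normalizer (A : Set Y)) (nc : c ∈ normalizer (A : Set Y)) :
    a ∈ centralizer (A : Set Y) ∨ b ∈ centralizer (A : Set Y) ∨ c ∈ centralizer (A : Set Y) ∨
      a * b ∈ centralizer (A : Set Y) ∨ a * c ∈ centralizer (A : Set Y) ∨
      b * c ∈ centralizer (A : Set Y) ∨ a * b * c ∈ centralizer (A : Set Y) := by
  have p : ∀ {x : Y}, x * x = 1 → IsPGroup 2 (zpowers x) := fun h =>
    isPGroup_zpowers (k := 1) (by rwa [pow_one, pow_two])
  have n : ∀ {x y : Y}, Commute x y → zpowers x ≤ normalizer (zpowers y : Set Y) := fun h =>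
    zpowers_le.2 (centralizer_le_normalizer _ (by
      rw [H12.centralizer_zpowers, mem_centralizer_singleton_iff]; exact h))
  obtain ⟨T, ψ, h1, h2, h3⟩ := sec_gl2 hG φ hφ hA (B := zpowers a ⊔ zpowers b ⊔ zpowers c)
    (((p ha).to_sup_of_normal_right' (p hb) (n ab)).to_sup_of_normal_right' (p hc)
      (sup_le (n ac) (n bc)))
    (sup_le (sup_le (zpowers_le.2 na) (zpowers_le.2 nb)) (zpowers_le.2 nc))
  obtain ⟨a, a1, rfl⟩ := h1 (mem_sup_left (mem_sup_left (mem_zpowers a)))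
  obtain ⟨b, b1, rfl⟩ := h1 (mem_sup_left (mem_sup_right (mem_zpowers b)))
  obtain ⟨c, c1, rfl⟩ := h1 (mem_sup_right (mem_zpowers c))
  lift a to T using a1
  lift b to T using b1
  lift c to T using c1
  have s : ∀ {x : T}, φ x * φ x = 1 → ψ x * ψ x = 1 := fun h => by
    rw [← map_mul] at h ⊢; exact h2 _ h
  have k : ∀ {x y : T}, Commute (φ x) (φ y) → Commute (ψ x) (ψ y) := fun h => by
    rw [← commutatorElement_eq_one_iff_commute, ← map_commutatorElement] at h ⊢; exact h2 _ h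
  have := gl2_rank (s ha) (s hb) (s hc) (k ab) (k ac) (k bc)
  simp only [← map_mul] at this ⊢
  exact this.imp (h3 _) (.imp (h3 _) (.imp (h3 _) (.imp (h3 _) (.imp (h3 _)
    (.imp (h3 _) (h3 _))))))

variable {H V W W' : Subgroup G} {φ : H →* Y}

theorem cmp_data (h : Act H V) (hφ : ∀ g : H, φ g = 1 ↔ (g : G) ∈ centralizer (V : Set G))
    (hW : Cmp H V W) : IsPGroup 3 (res 2 (((EW H V W).subgroupOf H).map φ)) ∧
      ∃ t ∈ ((EW H V W).subgroupOf H).map φ, t * t = 1 ∧
        t ∉ centralizer (res 2 (((EW H V W).subgroupOf H).map φ) : Set Y) := by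
  have : Fact (Nat.Prime 3) := ⟨Nat.prime_three⟩
  have f := cmp_four h hW
  constructor
  · have h1 : Nat.card (((EW H V W).subgroupOf H).map φ) ∣ 6 := by
      have hk : φ.ker = (centralizer (V : Set G)).subgroupOf H := by
        ext g; rw [MonoidHom.mem_ker, hφ, mem_subgroupOf]
      rw [← relIndex_ker, hk, relIndex_subgroupOf EW_le, ← inf_relIndex_right,
        show centralizer (V : Set G) ⊓ EW H V W = centralizer (W : Set G) ⊓ EW H V W from
          le_antisymm (inf_le_inf_right _ (H98.centralizer_anti (cmp_le h hW)))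
            fun e he => ⟨mem_cent_of_EW h hW he.2 he.1, he.2⟩, inf_relIndex_right]
      exact f.relIndex_dvd EW_le_normalizer
    generalize ((EW H V W).subgroupOf H).map φ = E at h1
    have : Finite E := Nat.finite_of_card_ne_zero fun e => by rw [e] at h1; omega
    obtain ⟨P, hP⟩ := exists_isSyl 3 E
    have h2 : P.relIndex E ∣ 6 := (relIndex_dvd_card _ _).trans h1
    have h3 := hP.not_dvd_relIndex
    refine hP.isPGroup.to_le (res_le_of_forall_pow fun x hx => ⟨1, ?_⟩)
    have h4 : P.relIndex E = 1 ∨ P.relIndex E = 2 := by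
      have := Nat.le_of_dvd (by norm_num) h2
      interval_cases P.relIndex E <;> omega
    rcases h4 with e | e
    · exact pow_mem (relIndex_eq_one.1 e hx) _
    · exact sq_mem_of_index_two e ⟨x, hx⟩
  · obtain ⟨t, ht, z, hz, tz⟩ := exists_tz h hW
    obtain ⟨q, hq, q1, q2⟩ := f_exists f z
    obtain ⟨k, hk, e⟩ := exists_conj h hW hz tz.ne hq q1
    have kH := EW_le (res_le _ hk)
    refine ⟨φ ⟨t, EW_le ht⟩, mem_map_of_mem φ ht, by
      rw [← map_mul]; exact (hφ _).2 (tz.sq h.ea), fun c => q2 ?_⟩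
    have h1 := c (φ ⟨k, kH⟩) (by
      rw [← map_res, SetLike.mem_coe]
      refine mem_map_of_mem φ ?_
      rwa [← mem_map_iff_mem H.subtype_injective, map_res_subgroupOf EW_le])
    rw [← commutatorElement_eq_one_iff_mul_comm, ← map_commutatorElement, hφ] at h1
    exact e ▸ (tz.cj (h.le kH)).unique (tz.congr h1)

theorem cmp_comm (h : Act H V) (hφ : ∀ g : H, φ g = 1 ↔ (g : G) ∈ centralizer (V : Set G))
    (hW : Cmp H V W) (hW' : Cmp H V W') (hne : W ≠ W') : ((EW H V W).subgroupOf H).map φ ≤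
      centralizer ((((EW H V W').subgroupOf H).map φ : Subgroup Y) : Set Y) := by
  rintro _ ⟨a, ha, rfl⟩ _ ⟨b, hb, rfl⟩
  rw [← commutatorElement_eq_one_iff_mul_comm, ← map_commutatorElement, hφ]
  have h1 := EW_le_cent_of_ne h hW hW' hne ha
  refine mem_cent_of_EW h hW' (comm_mem hb (mem_normalizer_EW (le_normalizer a.2) (h.le a.2)
    (centralizer_le_normalizer _ h1))) ?_
  exact mul_mem (conj_mem_of_mem_normalizer
    (normalizer_le_normalizer_centralizer _ (EW_le_normalizer hb)) h1) (inv_mem h1)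

theorem jobR3 : JobR3.{u} := by
  intro G _ _ H V W₁ W₂ W₃ h hk c₁ c₂ c₃
  by_contra hn
  push Not at hn
  obtain ⟨n12, n13, n23⟩ := hn
  have : ((centralizer (V : Set G)).subgroupOf H).Normal :=
    normal_subgroupOf_of_le_normalizer (le_normalizer_centralizer h.le)
  let φ := QuotientGroup.mk' ((centralizer (V : Set G)).subgroupOf H)
  have hφ : ∀ g : H, φ g = 1 ↔ (g : G) ∈ centralizer (V : Set G) := fun g =>
    QuotientGroup.eq_one_iff g
  obtain ⟨p₁, t₁, m₁, s₁, r₁⟩ := cmp_data h hφ c₁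
  obtain ⟨p₂, t₂, m₂, s₂, r₂⟩ := cmp_data h hφ c₂
  obtain ⟨p₃, t₃, m₃, s₃, r₃⟩ := cmp_data h hφ c₃
  have k12 := cmp_comm h hφ c₁ c₂ n12
  have k13 := cmp_comm h hφ c₁ c₃ n13
  have k23 := cmp_comm h hφ c₂ c₃ n23
  generalize ((EW H V W₁).subgroupOf H).map φ = E₁ at *
  generalize ((EW H V W₂).subgroupOf H).map φ = E₂ at *
  generalize ((EW H V W₃).subgroupOf H).map φ = E₃ at *
  have k := fun {E E' : Subgroup (H ⧸ (centralizer (V : Set G)).subgroupOf H)}
    (e : E ≤ centralizer (E' : Set _)) => e.trans (H98.centralizer_anti (res_le (p := 2) E'))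
  have a12 := k k12
  have a13 := k k13
  have a23 := k k23
  have a21 := k (le_centralizer_iff.1 k12)
  have a31 := k (le_centralizer_iff.1 k13)
  have a32 := k (le_centralizer_iff.1 k23)
  have c := fun {A B : Subgroup (H ⧸ (centralizer (V : Set G)).subgroupOf H)} =>
    le_normalizer_of_le_centralizer (H := A) (A := B)
  have s := fun E : Subgroup (H ⧸ (centralizer (V : Set G)).subgroupOf H) =>
    self_le_normalizer_res (p := 2) E
  have := sec_rank hk φ (QuotientGroup.mk'_surjective _) (A := res 2 E₁ ⊔ res 2 E₂ ⊔ res 2 E₃)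
    ((p₁.to_sup_of_normal_right' p₂ ((res_le _).trans (c a12))).to_sup_of_normal_right' p₃
      (sup_le ((res_le _).trans (c a13)) ((res_le _).trans (c a23)))) s₁ s₂ s₃
    (k12 m₁ _ m₂).symm (k13 m₁ _ m₃).symm (k23 m₂ _ m₃).symm
    (le_normalizer_sup (le_normalizer_sup (s _) (c a12)) (c a13) m₁)
    (le_normalizer_sup (le_normalizer_sup (c a21) (s _)) (c a23) m₂)
    (le_normalizer_sup (le_normalizer_sup (c a31) (c a32)) (s _) m₃)
  simp only [H98.centralizer_sup, mem_inf] at this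
  rcases this with e | e | e | e | e | e | e
  · exact r₁ e.1.1
  · exact r₂ e.1.2
  · exact r₃ e.2
  · exact r₁ ((mul_mem_cancel_right (a21 m₂)).1 e.1.1)
  · exact r₁ ((mul_mem_cancel_right (a31 m₃)).1 e.1.1)
  · exact r₂ ((mul_mem_cancel_right (a32 m₃)).1 e.1.2)
  · exact r₃ ((mul_mem_cancel_left (mul_mem (a13 m₁) (a23 m₂))).1 e.2)

theorem jobPX : JobPX.{u} := by
  intro hR G _ _ S P W x h pc
  obtain ⟨M, hM⟩ := pc.umax
  have hSP := hM.le_top'
  have hS := h.syl.of_le hSP le_top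
  have hc := h.chr P hSP pc.core
  have hs := h.sol P hSP pc.core
  have hx : x ∈ P := pc.eq ▸ mem_sup_right (mem_zpowers x)
  have bc : ∀ t ∈ S, BC (BT S) (cj t W) (t * x * t⁻¹) := fun t ht => BC_cj' pc.bc (nB ht)
  have hx' : ∀ t ∈ S, t * x * t⁻¹ ∈ P := fun t ht =>
    mul_mem (mul_mem (hSP ht) hx) (inv_mem (hSP ht))
  obtain ⟨A, hV⟩ := nf_act hs hc hS pc.bc pc.bc hx hx
  rw [sup_idem] at A hV
  have cmp : ∀ t ∈ S, Cmp P (ncl P W) (cj t W) := fun t ht =>
    (mem_OJ A hS hV (bc t ht) (hx' t ht) (cj_le_ncl (hSP ht))).1.1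
  have oj := (mem_OJ A hS hV pc.bc hx (le_ncl _ _)).1
  obtain ⟨z, hz⟩ := exists_zc pc.bc
  obtain ⟨s, hs', two⟩ : ∃ s ∈ S, ∀ t ∈ S, cj t W = W ∨ cj t W = cj s W := by
    by_cases e : ∃ s ∈ S, cj s W ≠ W
    · obtain ⟨s, h1, h2⟩ := e
      exact ⟨s, h1, fun t ht => (hR G P _ _ _ _ A (h.rk P hSP pc.core) (cmp t ht) oj.1
        (cmp s h1)).imp_right fun k => k.resolve_right h2.symm⟩
    · push Not at e
      exact ⟨1, one_mem _, fun t ht => Or.inl (e t ht)⟩
  have ind : ∀ t ∈ S, cj t W ≠ W →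
      W ⊓ cj t W = ⊥ ∧ W ≤ centralizer (cj t W : Set G) ∧ x ∈ centralizer (cj t W : Set G) :=
    fun t ht e => by
      obtain ⟨-, a, b, -⟩ := nf hs hc hS pc.bc (bc t ht) hx (hx' t ht) e.symm
      exact ⟨b, a, nf_odd hs hc hS pc.bc (bc t ht) hx (hx' t ht) e.symm pc.odd⟩
  have nV : P ≤ normalizer ((W ⊔ cj s W : Subgroup G) : Set G) := by
    have k : ∀ t ∈ S, cj t W ≤ W ⊔ cj s W := fun t ht =>
      (two t ht).elim (fun e => e.le.trans le_sup_left) fun e => e.le.trans le_sup_right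
    rw [pc.eq]
    refine sup_le (fun t ht => mem_normalizer_of_cj_le ?_) (zpowers_le.2 ?_)
    · rw [cj_sup, cj_cj]
      exact sup_le (k t ht) (k _ (mul_mem ht hs'))
    · by_cases e : cj s W = W
      · rw [e, sup_idem]; exact pc.bc.nx
      · exact le_normalizer_sup (zpowers_le.2 pc.bc.nx)
          (zpowers_le.2 (centralizer_le_normalizer _ (ind s hs' e).2.2)) (mem_zpowers x)
  have eV : ncl P W = W ⊔ cj s W :=
    le_antisymm (ncl_le le_sup_left nV) (sup_le (le_ncl _ _) (cj_le_ncl (hSP hs')))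
  rw [eV] at A hV oj
  have nC : P ≤ normalizer ((P ⊓ centralizer ((W ⊔ cj s W : Subgroup G) : Set G) : Subgroup G) :
      Set G) := le_normalizer_inf le_normalizer (le_normalizer_centralizer nV)
  have hCM : P ⊓ centralizer ((W ⊔ cj s W : Subgroup G) : Set G) ≤ M := by
    by_contra c
    obtain ⟨t, ht, c, hc', e⟩ := (mem_sup_left_norm (hSP.trans nC)).1
      ((hM.sup_eq inf_le_left c).ge hx)
    have h1 : x * z * x⁻¹ = t * z * t⁻¹ := by
      rw [e, mul_assoc t, ← hc'.2 z (mem_sup_left hz.mem)]; group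
    have h2 : t * z * t⁻¹ = z := hz.eq pc.bc (h1 ▸ conj_mem_of_mem_normalizer pc.bc.nx hz.mem)
      (by simpa [mul_inv_eq_one] using hz.ne)
      (conj_mem_of_mem_normalizer (normalizer_le_normalizer_centralizer _ (nB ht)) hz.comm)
    exact x_move pc.bc hz.mem hz.ne (mul_inv_eq_iff_eq_mul.1 (h1.trans h2))
  refine ⟨z, s, hS, hc, hs, pc.eq, pc.odd, pc.bc, hz, hs', two, ind,
    le_antisymm (le_inf hS.pCoreOf_le (le_centralizer_iff.1 ?_)) ?_,
    fun Y h1 h2 y hy hn hm => (hM.uniq Y h1 h2).resolve_left fun hY => ?_⟩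
  · exact (sup_le (le_oZ_core hc hS pc.bc hx) (le_oZ_core hc hS (bc s hs') (hx' s hs'))).trans
      (le_centralizer_iff.1 (H97.le_centralizer_oZ _))
  · exact (le_inf inf_le_left (inf_le_inf_right _ hSP)).trans (hM.inf_le_pCoreOf hS hCM nC)
  · obtain ⟨t, tJ, tE, -, z₀, hz₀, tz⟩ := exists_tz_jt A hSP hV oj
    have tB : t ∈ BT S := jt_le_bm S tJ
    obtain rfl : z₀ = z := hz.eq pc.bc hz₀ tz.ne
      (tz.mem_cent_of_pgroup A oj.1 tE pc.bc.pB pc.bc.nB tB)
    have h3 := EW_le_of_move A oj.1 hCM tz tE (hM.le (bm_le S tB)) (hY hy) (h2 hy) hn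
      fun e => hm (mul_inv_eq_iff_eq_mul.1 e)
    refine hM.not_le (pc.eq.le.trans (sup_le hM.le (zpowers_le.2 (h3
      (mem_EW.2 ⟨hx, pc.bc.nx, fun v hv => ?_⟩)))))
    by_cases e : cj s W = W
    · rw [e, sup_idem] at hv; exact comm_mem hv pc.bc.nx
    · obtain ⟨a, ha, b, hb, rfl⟩ := (mem_sup_ea A.ea le_sup_left le_sup_right).1 hv
      rw [comm_mul_left A.ea (mem_sup_left ha) (mem_sup_right hb) (nV hx),
        mem_cent_iff.1 (ind s hs' e).2.2 b hb, mul_one]
      exact comm_mem ha pc.bc.nx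

end H86.QP
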