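/- Tower SG: differential operators on the polynomial ring. -/
import Cfsg.Agent.H53.SGSpec

set_option autoImplicit false

namespace H86.SG

open Finsupp MvPolynomial Module H53.SG
open scoped Classical

universe v

variable {e n : ℕ} {K : Type v} [Field K]

/-- the polynomial ring -/
abbrev RR (e n : ℕ) (K : Type v) [Field K] := MvPolynomial (Vr e n) K
/-- matrices -/
abbrev MM (e n : ℕ) (K : Type v) := Matrix (ZMod (e * n)) (ZMod (e * n)) K

theorem mon_ind {P : Mon e n → Prop} (h0 : P 0) (h1 : ∀ m v, P m → P (m + single v 1))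
    (m : Mon e n) : P m := by
  induction m using Finsupp.induction with
  | zero => exact h0
  | single_add a b f _ hb ih =>
    clear hb
    induction b with
    | zero => simpa using ih
    | succ b ihb => rw [single_add, add_right_comm]; exact h1 _ _ ihb

theorem mon_succ (m : Mon e n) (v : Vr e n) :
    (monomial (m + single v 1) 1 : RR e n K) = X v * monomial m 1 := by
  rw [X, monomial_mul, add_comm, one_mul]

theorem end_ext {o o' : End K (RR e n K)} (h : ∀ m, o (monomial m 1) = o' (monomial m 1)) :
    o = o' := (basisMonomials (Vr e n) K).ext fun m => by simpa using h m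

/-- commutator with a multiplication -/
noncomputable def ad (G : RR e n K) : End K (RR e n K) →ₗ[K] End K (RR e n K) :=
  LinearMap.mulRight K (LinearMap.mulLeft K G) - LinearMap.mulLeft K (LinearMap.mulLeft K G)

theorem ad_apply (G : RR e n K) (o : End K (RR e n K)) (H : RR e n K) :
    ad G o H = o (G * H) - G * o H := rfl

/-- operators of weighted order less than `k` -/
noncomputable def Od (K : Type v) [Field K] (ω : Vr e n → ℕ) : ℕ → Submodule K (End K (RR e n K))
  | 0 => ⊥
  | k + 1 => ⨅ v, (Od K ω (k - ω v)).comap (ad (X v))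
  decreasing_by omega

variable {ω : Vr e n → ℕ}

theorem od_zero {o : End K (RR e n K)} : o ∈ Od K ω 0 ↔ o = 0 := by rw [Od, Submodule.mem_bot]

theorem od_succ {o : End K (RR e n K)} {k : ℕ} :
    o ∈ Od K ω (k + 1) ↔ ∀ v, ad (X v) o ∈ Od K ω (k - ω v) := by
  rw [Od]; simp only [Submodule.mem_iInf, Submodule.mem_comap]

theorem od_dop {k : ℕ} {f : Mon e n → K} (h : FD ω k f) (μ : Mon e n) :
    LinearMap.mulLeft K (monomial μ 1) * dop f ∈ Od K ω k := by
  induction k using Nat.strong_induction_on generalizing f μ with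
  | _ k ih =>
  rcases k with _ | k
  · rw [FD] at h
    rw [od_zero]
    exact end_ext fun m => by simp [dop_monomial, h]
  · rw [FD] at h
    refine od_succ.2 fun v => ?_
    convert ih _ (by omega) (h v) (μ + single v 1) using 1
    refine end_ext fun m => ?_
    simp only [ad_apply, End.mul_apply, LinearMap.mulLeft_apply, X, monomial_mul, dop_monomial,
      one_mul, mul_one, map_sub, add_comm m, add_assoc, add_left_comm (single v 1)]

theorem od_entry {k : ℕ} {o : End K (RR e n K)} (h : o ∈ Od K ω k) {m m' : Mon e n}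
    (h1 : coeff m' (o (monomial m 1)) ≠ 0) :
    ∃ ρ μ μ', m = ρ + μ ∧ m' = ρ + μ' ∧ weight (fun v => ω v + 1) μ < k := by
  induction k using Nat.strong_induction_on generalizing o m m' with
  | _ k ih =>
  rcases k with _ | k
  · simp [od_zero.1 h] at h1
  induction m using mon_ind generalizing m' with
  | h0 => exact ⟨0, 0, m', by simp, by simp, by simp⟩
  | h1 m v ihm =>
    have h2 : o (monomial (m + single v 1) 1) =
        X v * o (monomial m 1) + ad (X v) o (monomial m 1) := by
      rw [ad_apply, mon_succ, add_sub_cancel]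
    rw [h2, coeff_add] at h1
    by_cases h3 : coeff m' (ad (X v) o (monomial m 1)) = 0
    · rw [h3, add_zero, coeff_X_mul'] at h1
      have h4 : m' v ≠ 0 := fun h4 => by simp [h4] at h1
      rw [if_pos (mem_support_iff.2 h4)] at h1
      obtain ⟨ρ, μ, μ', rfl, a2, a3⟩ := ihm h1
      refine ⟨ρ + single v 1, μ, μ', add_right_comm _ _ _, ?_, a3⟩
      rw [add_right_comm, ← a2, tsub_add_cancel_of_le (single_le_iff.2 (by omega))]
    · obtain ⟨ρ, μ, μ', rfl, a2, a3⟩ := ih _ (by omega) (od_succ.1 h v) h3
      refine ⟨ρ, μ + single v 1, μ', add_assoc _ _ _, a2, ?_⟩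
      rw [map_add, weight_single, one_smul]
      omega

/-- preservation of the weighted degree -/
def CP (K : Type v) [Field K] (w : Vr e n → ℕ) : Subalgebra K (End K (RR e n K)) where
  carrier := {o | ∀ d G, IsWeightedHomogeneous w G d → IsWeightedHomogeneous w (o G) d}
  mul_mem' := fun ha hb d G h => ha d _ (hb d G h)
  add_mem' := fun ha hb d G h => (ha d G h).add (hb d G h)
  algebraMap_mem' := fun c d G h =>
    (weightedHomogeneousSubmodule K w d).smul_mem c (show G ∈ _ from h)

theorem cp_of {w : Vr e n → ℕ} {o : End K (RR e n K)}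
    (h : ∀ m, IsWeightedHomogeneous w (o (monomial m 1)) (weight w m)) : o ∈ CP K w :=
  fun d G hG => by
    rw [G.as_sum, map_sum]
    refine IsWeightedHomogeneous.sum _ _ _ fun m hm => ?_
    rw [← mul_one (coeff m G), ← smul_eq_mul, ← smul_monomial, map_smul,
      ← hG (MvPolynomial.mem_support_iff.1 hm)]
    exact (weightedHomogeneousSubmodule K w _).smul_mem _ (show _ ∈ _ from h m)

theorem cp_dop (w : Vr e n → ℕ) (f : Mon e n → K) : dop f ∈ CP K w := cp_of fun m => by
  rw [dop_monomial]; exact isWeightedHomogeneous_monomial _ _ _ rfl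

/-- the product rule -/
def IsDer (o : End K (RR e n K)) : Prop := ∀ G H, o (G * H) = o G * H + G * o H

theorem IsDer.one {o : End K (RR e n K)} (h : IsDer o) : o 1 = 0 := by
  simpa using h 1 1

theorem IsDer.ext {o o' : End K (RR e n K)} (h : IsDer o) (h' : IsDer o')
    (h1 : ∀ v, o (X v) = o' (X v)) : o = o' := end_ext fun m => by
  induction m using mon_ind with
  | h0 => exact h.one.trans h'.one.symm
  | h1 m v ih => rw [mon_succ, h, h', h1, ih]

theorem IsDer.comm {o o' : End K (RR e n K)} (h : IsDer o) (h' : IsDer o') :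
    IsDer (o * o' - o' * o) := fun G H => by
  simp only [LinearMap.sub_apply, End.mul_apply, h G, h' G, map_add, h _ H, h' _ H]
  ring

theorem coeff_dop_mul (f g : Mon e n → K) (o : End K (RR e n K)) (m m' : Mon e n) :
    coeff m' ((dop f * o * dop g) (monomial m 1)) = f m' * g m * coeff m' (o (monomial m 1)) := by
  rw [End.mul_apply, End.mul_apply, coeff_dop, dop_monomial, ← smul_eq_mul (g m), ← smul_monomial,
    map_smul, coeff_smul, smul_eq_mul, mul_assoc]

theorem E_self (a : ZMod (e * n)) : E K a a = dop fun m => (eta m a : K) := end_ext fun m => by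
  simp only [E_apply, X_mul_pderiv_monomial]
  simp [dop_monomial, eta, smul_monomial, add_comm]

variable [NeZero (e * n)]

/-- the image of a variable -/
noncomputable def lin (Z : MM e n K) (v : Vr e n) : RR e n K := ∑ t, Z t v.2 • X (v.1, t)

/-- the derivation of a matrix -/
noncomputable def der : MM e n K →ₗ[K] End K (RR e n K) where
  toFun Z := ∑ a, ∑ b, Z a b • E K a b
  map_add' _ _ := by simp [add_smul, Finset.sum_add_distrib]
  map_smul' _ _ := by simp [Finset.smul_sum, smul_smul]

theorem der_apply (Z : MM e n K) (G : RR e n K) : der Z G = ∑ a, ∑ b, Z a b • E K a b G := by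
  simp [der]

theorem der_single (a b : ZMod (e * n)) : der (Matrix.single a b (1 : K)) = E K a b := by
  simp [der, Matrix.single_apply, ite_and]

theorem isDer (Z : MM e n K) : IsDer (der Z) := fun G H => by
  simp only [der_apply, E_apply, Derivation.leibniz, smul_eq_mul, Finset.sum_mul, Finset.mul_sum,
    smul_mul_assoc, mul_smul_comm, ← Finset.sum_add_distrib, ← smul_add]
  refine Finset.sum_congr rfl fun a _ => Finset.sum_congr rfl fun b _ => congrArg _ <|
    Finset.sum_congr rfl fun k _ => by ring

theorem der_X (Z : MM e n K) (v : Vr e n) : der Z (X v) = lin Z v := by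
  obtain ⟨k, t⟩ := v
  simp only [der_apply, E_apply, pderiv_X, Pi.single_apply, Prod.mk.injEq, lin, ite_and, mul_ite,
    mul_one, mul_zero, Finset.sum_ite_eq, Finset.mem_univ, if_true, smul_ite, smul_zero]

/-- substitution as a linear map -/
noncomputable def sl (A : MM e n K) : End K (RR e n K) := (sg A).toLinearMap

theorem sl_apply (A : MM e n K) (G : RR e n K) : sl A G = sg A G := rfl

theorem sg_X (A : MM e n K) (v : Vr e n) : sg A (X v) = lin A v := aeval_X _ _

theorem map_lin {o : End K (RR e n K)} {A : MM e n K} (h : ∀ v, o (X v) = lin A v) (B : MM e n K)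
    (v : Vr e n) : o (lin B v) = lin (A * B) v := by
  simp only [lin, map_sum, map_smul, h, Finset.smul_sum, smul_smul, Matrix.mul_apply,
    Finset.sum_smul, mul_comm]
  exact Finset.sum_comm

theorem lin_one (v : Vr e n) : lin (1 : MM e n K) v = X v := by
  simp [lin, Matrix.one_apply]

theorem sg_lin (A B : MM e n K) (v : Vr e n) : sg A (lin B v) = lin (A * B) v :=
  map_lin (o := sl A) (sg_X A) B v

theorem sg_sg {A B : MM e n K} (h : A * B = 1) (G : RR e n K) : sg A (sg B G) = G := by
  have : (sg A).comp (sg B) = AlgHom.id K _ := algHom_ext fun v => by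
    rw [AlgHom.comp_apply, sg_X, sg_lin, h, lin_one, AlgHom.id_apply]
  exact DFunLike.congr_fun this G

theorem der_comm (Z Z' : MM e n K) : der (Z * Z' - Z' * Z) = der Z * der Z' - der Z' * der Z :=
  (isDer _).ext ((isDer Z).comm (isDer Z')) fun v => by
    simp only [map_sub, LinearMap.sub_apply, End.mul_apply, der_X, map_lin (der_X _)]

theorem der_conj {A B : MM e n K} (h : A * B = 1) (Z : MM e n K) :
    der (A * Z * B) = sl A * der Z * sl B :=
  (isDer _).ext (fun G H => by
    simp only [End.mul_apply, sl_apply, map_mul, isDer Z (sg B G), map_add, sg_sg h]) fun v => by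
    simp only [End.mul_apply, sl_apply, sg_X, der_X, map_lin (der_X _), sg_lin, mul_assoc]

theorem sl_diag (d : ZMod (e * n) → K) :
    sl (Matrix.diagonal d) = dop fun m => ∏ v, d v.2 ^ m v := end_ext fun m => by
  rw [dop_monomial, sl_apply]
  induction m using mon_ind with
  | h0 => simp
  | h1 m v ih =>
    have : lin (Matrix.diagonal d) v = d v.2 • X v := by simp [lin, Matrix.diagonal_apply]
    rw [mon_succ, map_mul, ih, sg_X, this, X, smul_monomial, monomial_mul, add_comm]
    simp only [Finsupp.add_apply, pow_add, Finset.prod_mul_distrib]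
    simp [single_apply, mul_comm]

/-- the matrix respects the weight -/
def Cls (ω : Vr e n → ℕ) (Z : MM e n K) : Prop := ∀ k t' t, Z t' t ≠ 0 → ω (k, t') = ω (k, t)

theorem ad_lin {Z : MM e n K} (hZ : Cls ω Z) {o : End K (RR e n K)} {k : ℕ}
    (h : o ∈ Od K ω (k + 1)) (v : Vr e n) : ad (lin Z v) o ∈ Od K ω (k - ω v) := by
  have : ad (lin Z v) o = ∑ t, Z t v.2 • ad (X (v.1, t)) o := LinearMap.ext fun G => by
    simp [ad_apply, lin, Finset.sum_mul, smul_sub, Finset.sum_sub_distrib]
  rw [this]
  refine Submodule.sum_mem _ fun t _ => ?_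
  by_cases h0 : Z t v.2 = 0
  · simp [h0]
  · exact Submodule.smul_mem _ _ (hZ v.1 t v.2 h0 ▸ od_succ.1 h (v.1, t))

theorem od_conj {A B : MM e n K} (hAB : A * B = 1) (hB : Cls ω B) {k : ℕ} {o : End K (RR e n K)}
    (h : o ∈ Od K ω k) : sl A * o * sl B ∈ Od K ω k := by
  induction k using Nat.strong_induction_on generalizing o with
  | _ k ih =>
  rcases k with _ | k
  · simp [od_zero.1 h]
  refine od_succ.2 fun v => ?_
  convert ih _ (by omega) (ad_lin hB h v) using 1
  refine LinearMap.ext fun G => ?_
  simp only [ad_apply, End.mul_apply, sl_apply, map_mul, map_sub, sg_X, sg_lin, hAB, lin_one]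

theorem od_der {Z : MM e n K} (hZ : Cls ω Z) {k : ℕ} {o : End K (RR e n K)}
    (h : o ∈ Od K ω k) : der Z * o - o * der Z ∈ Od K ω k := by
  induction k using Nat.strong_induction_on generalizing o with
  | _ k ih =>
  rcases k with _ | k
  · simp [od_zero.1 h]
  refine od_succ.2 fun v => ?_
  convert sub_mem (ih _ (by omega) (od_succ.1 h v)) (ad_lin hZ h v) using 1
  refine LinearMap.ext fun G => ?_
  simp only [ad_apply, End.mul_apply, LinearMap.sub_apply, map_sub, map_add, isDer Z (X v), der_X]
  ring

theorem hom_lin {Z : MM e n K} (hZ : Cls ω Z) (v : Vr e n) :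
    IsWeightedHomogeneous (fun v => ω v + 1) (lin Z v) (ω v + 1) :=
  IsWeightedHomogeneous.sum _ _ _ fun t _ => by
    by_cases h0 : Z t v.2 = 0
    · rw [h0, zero_smul]; exact isWeightedHomogeneous_zero _ _ _
    · exact (weightedHomogeneousSubmodule K _ _).smul_mem _
        (show _ ∈ _ from hZ v.1 t v.2 h0 ▸ isWeightedHomogeneous_X K _ (v.1, t))

theorem cp_sl {Z : MM e n K} (hZ : Cls ω Z) : sl Z ∈ CP K fun v => ω v + 1 := cp_of fun m => by
  rw [sl_apply]
  induction m using mon_ind with
  | h0 => simpa using isWeightedHomogeneous_one K _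
  | h1 m v ih =>
    rw [mon_succ, map_mul, sg_X, map_add, weight_single, one_smul, add_comm (weight _ m)]
    exact (hom_lin hZ v).mul ih

theorem cp_der {Z : MM e n K} (hZ : Cls ω Z) : der Z ∈ CP K fun v => ω v + 1 := cp_of fun m => by
  induction m using mon_ind with
  | h0 => rw [show (monomial 0 1 : RR e n K) = 1 from rfl, (isDer Z).one]
          exact isWeightedHomogeneous_zero _ _ _
  | h1 m v ih =>
    rw [mon_succ, isDer Z, der_X, map_add, weight_single, one_smul, add_comm (weight _ m)]
    exact ((hom_lin hZ v).mul (isWeightedHomogeneous_monomial _ _ _ rfl)).add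
      ((isWeightedHomogeneous_X K _ v).mul ih)

end H86.SG
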