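/- Tower SG: the operator lemma. -/
import Cfsg.Agent.H86.SGOp1

set_option autoImplicit false

namespace H86.SG

open Finsupp MvPolynomial Module H53.SG
open scoped Classical

universe v

variable {p e n r : ℕ} [NeZero (e * n)] {K : Type v} [Field K] {𝒜 : Set (MM e n K)} {θ : K}
  {s : ZMod e}

omit [NeZero (e * n)] in
theorem cls_om {Z : MM e n K} (h : ∀ t' t, Z t' t ≠ 0 → cl t' = cl t) : Cls (om p r s) Z :=
  fun k t' t h1 => by simp [om, h t' t h1]

theorem exists_add_of_cl {a b : ZMod (e * n)} (h : cl a = cl b) :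
    ∃ k : ℕ, b = a + (k * e : ℕ) := by
  have h1 : cl (b - a) = 0 := by rw [cl, map_sub]; exact sub_eq_zero.2 h.symm
  rw [← ZMod.natCast_zmod_val (b - a), cl_natCast, ZMod.natCast_eq_zero_iff] at h1
  obtain ⟨k, hk⟩ := h1
  exact ⟨k, by rw [mul_comm k e, ← hk, ZMod.natCast_zmod_val, add_sub_cancel]⟩

theorem card_cl (s : ZMod e) : Fintype.card {t : ZMod (e * n) // cl t = s} = n := by
  have he : NeZero e := ⟨left_ne_zero_of_mul (NeZero.ne (e * n))⟩
  have h1 : ∀ s' : ZMod e, (Finset.univ.filter fun t : ZMod (e * n) => cl t = s').card =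
      Fintype.card {t : ZMod (e * n) // cl t = s} := fun s' => by
    rw [Fintype.card_subtype]
    refine Finset.card_bij (fun t _ => t + ((s - s').val : ℕ)) (fun t ht => ?_)
      (fun _ _ _ _ h => add_right_cancel h) fun t ht => ⟨t - ((s - s').val : ℕ), ?_, by simp⟩
    · simp only [Finset.mem_filter, Finset.mem_univ, true_and] at ht ⊢
      rw [cl_add, cl_natCast, ZMod.natCast_zmod_val, ht, add_sub_cancel]
    · simp only [Finset.mem_filter, Finset.mem_univ, true_and] at ht ⊢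
      rw [cl, map_sub, map_natCast, ZMod.natCast_zmod_val, ← cl, ht, sub_sub_cancel]
  have h2 := Finset.card_eq_sum_card_fiberwise (s := Finset.univ) (t := Finset.univ)
    (f := fun t : ZMod (e * n) => cl t) fun _ _ => Finset.mem_univ _
  simp only [h1, Finset.card_univ, ZMod.card, Finset.sum_const, smul_eq_mul] at h2
  exact (Nat.eq_of_mul_eq_mul_left (NeZero.pos e) h2).symm

/-- the character of the torus element -/
noncomputable def chi (p : ℕ) (θ : K) (m : Mon e n) : K := ∏ v, (θ ^ p ^ v.2.val) ^ m v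

theorem chi_add (m m' : Mon e n) : chi p θ (m + m') = chi p θ m * chi p θ m' := by
  simp [chi, pow_add, Finset.prod_mul_distrib]

theorem sep_eta [CharP K p] (hp : p.Prime) (D : Dat p r 𝒜 θ) {ν ν' : Mon e n}
    (h1 : ∀ v, ν v ≠ 0 → om p r s v < r) (h2 : ∀ v, ν' v ≠ 0 → om p r s v < r)
    (h3 : weight (fun v => om p r s v + 1) ν = weight (fun v => om p r s v + 1) ν')
    (h4 : weight (fun v => om p r s v + 1) ν ≤ 2 * r) (h5 : chi p θ ν = chi p θ ν')
    {a : ZMod (e * n)} (ha : cl a = s) : (eta ν a : K) = eta ν' a := by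
  let gen : Vr e n → ZMod (e * n) → ℕ := fun v =>
    if cl v.2 = s then Pi.single v.2 1 else Pi.single (v.2 - 1) p
  let α : Mon e n → ZMod (e * n) → ℕ := fun ν t => ∑ v, ν v * gen v t
  have good : ∀ v : Vr e n, om p r s v < r → ¬ cl v.2 = s → cl v.2 = s + 1 := fun v h h' => by
    by_contra h''
    simp [om, h', h''] at h
  have a1 : ∀ ν : Mon e n, (∀ v, ν v ≠ 0 → om p r s v < r) → ∀ t, α ν t ≠ 0 → cl t = s :=
    fun ν h t ht => by
      obtain ⟨v, -, hv⟩ := Finset.exists_ne_zero_of_sum_ne_zero ht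
      have h6 := right_ne_zero_of_mul hv
      by_cases h7 : cl v.2 = s
      · simp only [gen, if_pos h7, Pi.single_apply, ne_eq, ite_eq_right_iff, not_forall] at h6
        exact h6.1 ▸ h7
      · simp only [gen, if_neg h7, Pi.single_apply, ne_eq, ite_eq_right_iff, not_forall] at h6
        rw [h6.1, cl, map_sub, map_one, ← cl, good v (h v (left_ne_zero_of_mul hv)) h7,
          add_sub_cancel_right]
  have a2 : ∀ ν : Mon e n, (∀ v, ν v ≠ 0 → om p r s v < r) →
      ∑ t, α ν t = weight (fun v => om p r s v + 1) ν := fun ν h => by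
    rw [weight_eq_sum, Finset.sum_comm]
    refine Finset.sum_congr rfl fun v _ => ?_
    by_cases h0 : ν v = 0
    · simp [h0]
    rw [← Finset.mul_sum, smul_eq_mul]
    by_cases h7 : cl v.2 = s
    · simp [gen, om, h7]
    · have := good v (h v h0) h7
      simp only [gen, om, if_neg h7, if_pos this, Finset.sum_pi_single', Finset.mem_univ, if_true,
        Nat.sub_add_cancel hp.one_le]
  have a3 : ∀ ν : Mon e n, θ ^ val p (α ν) = chi p θ ν := fun ν => by
    simp only [val, α, Finset.sum_mul, mul_assoc]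
    rw [Finset.sum_comm, ← Finset.prod_pow_eq_pow_sum]
    refine Finset.prod_congr rfl fun v _ => ?_
    rw [← Finset.mul_sum, mul_comm, pow_mul]
    congr 1
    by_cases h7 : cl v.2 = s
    · simp [gen, h7, Pi.single_apply]
    · have := D.frob _ D.diag (v.2 - 1) (v.2 - 1)
      simp only [Matrix.diagonal_apply_eq, sub_add_cancel] at this
      simp [gen, h7, Pi.single_apply, this, ← pow_mul, mul_comm]
  have a4 : ∀ ν : Mon e n, (α ν a : K) = eta ν a := fun ν => by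
    have : ∀ v : Vr e n, (gen v a : K) = if v.2 = a then 1 else 0 := fun v => by
      by_cases h7 : cl v.2 = s
      · simp [gen, h7, Pi.single_apply, eq_comm]
      · have : v.2 ≠ a := fun h => h7 (h ▸ ha)
        simp [gen, h7, Pi.single_apply, this]
    simp [α, this, eta, Fintype.sum_prod_type, add_comm]
  rw [← a4, ← a4, D.sep s _ _ (a1 ν h1) (a1 ν' h2) (by rw [a2 ν h1, a2 ν' h2, h3])
    (by rwa [a2 ν h1]) (by rw [a3, a3, h5])]

variable {W : Submodule K (RR e n K)} {Φ : RR e n K}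

/-- the operators under control -/
def YY (ω : Vr e n → ℕ) (r : ℕ) (W : Submodule K (RR e n K)) (Φ : RR e n K) :
    Submodule K (End K (RR e n K)) where
  carrier := {o | o ∈ Od K ω (r + 1) ∧ o ∈ CP K (fun v => ω v + 1) ∧ (∀ G ∈ W, o G ∈ W) ∧ o Φ ∈ W}
  zero_mem' := ⟨zero_mem _, zero_mem _, fun _ _ => zero_mem _, zero_mem _⟩
  add_mem' := fun h h' => ⟨add_mem h.1 h'.1, add_mem h.2.1 h'.2.1,
    fun G hG => add_mem (h.2.2.1 G hG) (h'.2.2.1 G hG), add_mem h.2.2.2 h'.2.2.2⟩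
  smul_mem' := fun c _ h => ⟨Submodule.smul_mem _ c h.1, Subalgebra.smul_mem _ h.2.1 c,
    fun G hG => W.smul_mem c (h.2.2.1 G hG), W.smul_mem c h.2.2.2⟩

theorem yy_conj (D : Dat p r 𝒜 θ) (hW : ∀ A ∈ 𝒜, ∀ G ∈ W, sg A G ∈ W)
    (hΦ : ∀ A ∈ 𝒜, sg A Φ - Φ ∈ W) {A B : MM e n K} (hA : A ∈ 𝒜) (hB : B ∈ 𝒜) (h : A * B = 1)
    {o : End K (RR e n K)} (ho : o ∈ YY (om p r s) r W Φ) :
    sl A * o * sl B ∈ YY (om p r s) r W Φ :=
  ⟨od_conj h (cls_om (D.cls B hB)) ho.1,
    mul_mem (mul_mem (cp_sl (cls_om (D.cls A hA))) ho.2.1) (cp_sl (cls_om (D.cls B hB))),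
    fun G hG => hW A hA _ (ho.2.2.1 _ (hW B hB G hG)), hW A hA _ (by
      simpa [sl_apply] using add_mem (ho.2.2.1 _ (hΦ B hB)) ho.2.2.2)⟩

theorem diag_inv (D : Dat p r 𝒜 θ) : (∀ t : ZMod (e * n), θ ^ p ^ t.val ≠ 0) ∧
    (Matrix.diagonal fun t => (θ ^ p ^ t.val)⁻¹) ∈ 𝒜 := by
  obtain ⟨B, hB, h1, -⟩ := D.inv _ D.diag
  have h2 : ∀ t : ZMod (e * n), θ ^ p ^ t.val ≠ 0 := fun t h => by
    simpa [h] using congrFun (congrFun h1 t) t
  have h3 : B = Matrix.diagonal fun t => (θ ^ p ^ t.val)⁻¹ := Matrix.right_inv_eq_right_inv h1 (by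
    rw [Matrix.diagonal_mul_diagonal, ← Matrix.diagonal_one]
    exact congrArg _ (funext fun t => mul_inv_cancel₀ (h2 t)))
  exact ⟨h2, h3 ▸ hB⟩

theorem yy_self [Fintype K] [CharP K p] (hp : p.Prime) (D : Dat p r 𝒜 θ)
    (hW : ∀ A ∈ 𝒜, ∀ G ∈ W, sg A G ∈ W) (hΦ : ∀ A ∈ 𝒜, sg A Φ - Φ ∈ W) {a : ZMod (e * n)}
    (ha : cl a = s) {o : End K (RR e n K)} (ho : o ∈ YY (om p r s) r W Φ) :
    (E K a a * o - o * E K a a) Φ ∈ W := by
  obtain ⟨d0, d1⟩ := diag_inv D
  have c0 : ∀ m : Mon e n, chi p θ m ≠ 0 := fun m =>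
    Finset.prod_ne_zero_iff.2 fun v _ => pow_ne_zero _ (d0 _)
  have hq : ∀ q : Polynomial K, ∃ o' ∈ YY (om p r s) r W Φ, ∀ m m', coeff m' (o' (monomial m 1)) =
      q.eval (chi p θ m' * (chi p θ m)⁻¹) * coeff m' (o (monomial m 1)) := fun q => by
    induction q using Polynomial.induction_on with
    | C c => exact ⟨c • o, Submodule.smul_mem _ c ho, fun m m' => by simp⟩
    | add q q' h h' =>
      obtain ⟨o₁, a1, a2⟩ := h
      obtain ⟨o₂, b1, b2⟩ := h'
      exact ⟨o₁ + o₂, add_mem a1 b1, fun m m' => by simp [a2, b2, add_mul]⟩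
    | monomial k c h =>
      obtain ⟨o₁, a1, a2⟩ := h
      refine ⟨_, yy_conj D hW hΦ D.diag d1 (by
        rw [Matrix.diagonal_mul_diagonal, ← Matrix.diagonal_one]
        exact congrArg _ (funext fun t => mul_inv_cancel₀ (d0 t))) a1, fun m m' => ?_⟩
      rw [sl_diag, sl_diag, coeff_dop_mul, a2]
      simp only [inv_pow, Finset.prod_inv_distrib, Polynomial.eval_mul, Polynomial.eval_C,
        Polynomial.eval_pow, Polynomial.eval_X, chi]
      ring
  let S : Mon e n × Mon e n → Prop := fun x => ∃ ρ μ μ', x.1 = ρ + μ ∧ x.2 = ρ + μ' ∧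
    weight (fun v => om p r s v + 1) μ ≤ r ∧
    weight (fun v => om p r s v + 1) μ' = weight (fun v => om p r s v + 1) μ
  have hS : ∀ x y, S x → S y → chi p θ x.2 * (chi p θ x.1)⁻¹ = chi p θ y.2 * (chi p θ y.1)⁻¹ →
      (eta x.2 a : K) - eta x.1 a = eta y.2 a - eta y.1 a := by
    rintro ⟨_, _⟩ ⟨_, _⟩ ⟨ρ, μ, μ', rfl, rfl, a1, a2⟩ ⟨σ, ν, ν', rfl, rfl, b1, b2⟩ h
    have gd : ∀ μ ν : Mon e n, weight (fun v => om p r s v + 1) μ ≤ r →
        weight (fun v => om p r s v + 1) ν ≤ r → ∀ v, (μ + ν) v ≠ 0 → om p r s v < r :=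
      fun μ ν h1 h2 v hv => by
        by_cases h3 : μ v = 0
        · exact (le_weight_of_ne_zero' _ (by simpa [h3] using hv)).trans h2
        · exact (le_weight_of_ne_zero' _ h3).trans h1
    have := sep_eta hp D (gd μ' ν (a2 ▸ a1) b1) (gd μ ν' a1 (b2 ▸ b1))
      (by rw [map_add, map_add, a2, b2]) (by rw [map_add]; omega) (by
        have c1 := c0 ρ
        have c2 := c0 μ
        have c3 := c0 σ
        have c4 := c0 ν
        simp only [chi_add] at h ⊢
        field_simp at h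
        linear_combination h) ha
    simp only [eta, Finsupp.add_apply, Nat.cast_add] at this ⊢
    linear_combination this
  let g : K → K := fun x => if h : ∃ y, S y ∧ chi p θ y.2 * (chi p θ y.1)⁻¹ = x then
    (eta h.choose.2 a : K) - eta h.choose.1 a else 0
  obtain ⟨o', h1, h2⟩ := hq (Lagrange.interpolate Finset.univ id g)
  suffices h3 : E K a a * o - o * E K a a = o' from h3 ▸ h1.2.2.2
  refine end_ext fun m => MvPolynomial.ext _ _ fun m' => ?_
  have h3 := Lagrange.eval_interpolate_at_node (s := Finset.univ) (v := id) g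
    (Set.injOn_id _) (Finset.mem_univ (chi p θ m' * (chi p θ m)⁻¹))
  rw [id] at h3
  rw [h2, h3, E_self, LinearMap.sub_apply, End.mul_apply, End.mul_apply, coeff_sub, coeff_dop,
    dop_monomial, ← smul_eq_mul (eta m a : K), ← smul_monomial, map_smul, coeff_smul, smul_eq_mul,
    ← sub_mul]
  by_cases h4 : coeff m' (o (monomial m 1)) = 0
  · rw [h4, mul_zero, mul_zero]
  obtain ⟨ρ, μ, μ', a1, a2, a3⟩ := od_entry ho.1 h4
  have a4 := ho.2.1 _ _ (isWeightedHomogeneous_monomial _ m 1 rfl) h4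
  have a5 : S (m, m') := ⟨ρ, μ, μ', a1, a2, by omega, by
    rw [a1, a2, map_add, map_add] at a4
    exact add_left_cancel a4⟩
  have a6 : ∃ y, S y ∧ chi p θ y.2 * (chi p θ y.1)⁻¹ = chi p θ m' * (chi p θ m)⁻¹ :=
    ⟨_, a5, rfl⟩
  simp only [g, dif_pos a6]
  rw [hS _ _ a6.choose_spec.1 a5 a6.choose_spec.2]

/-- restriction of a matrix to a class -/
def sub (s : ZMod e) :
    MM e n K →ₗ[K] Matrix {t : ZMod (e * n) // cl t = s} {t : ZMod (e * n) // cl t = s} K where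
  toFun Z := Z.submatrix Subtype.val Subtype.val
  map_add' _ _ := rfl
  map_smul' _ _ := rfl

theorem sub_mul' (A : MM e n K) {Z : MM e n K} (h : ∀ t' t, Z t' t ≠ 0 → cl t' = cl t) :
    sub s (A * Z) = sub s A * sub s Z := by
  ext a b
  change ∑ t, A a t * Z t b = ∑ t : {t : ZMod (e * n) // cl t = s}, A a t * Z t b
  rw [← Finset.sum_subtype (Finset.univ.filter fun t => cl t = s) (by simp)
    fun t => A a t * Z t b, Finset.sum_filter_of_ne]
  exact fun t _ ht => (h t b (right_ne_zero_of_mul ht)).trans b.2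

theorem jobOp : JobOp.{v} := by
  intro hM p e n r _ K _ _ _ 𝒜 θ s W Φ f hp hn hr D hW hE hΦ hf h1 h2 a b ha hb
  have he : NeZero e := ⟨left_ne_zero_of_mul (NeZero.ne (e * n))⟩
  let Sp : MM e n K → Prop := fun Z => ∀ t' t, Z t' t ≠ 0 → cl t' = s ∧ cl t = s
  have sp1 : ∀ Z, Sp Z → ∀ t' t, Z t' t ≠ 0 → cl t' = cl t := fun Z h t' t h' =>
    (h t' t h').1.trans (h t' t h').2.symm
  have sp2 : ∀ Z, Sp Z → ∀ G ∈ W, der Z G ∈ W := fun Z h G hG => by
    rw [der_apply]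
    refine W.sum_mem fun a _ => W.sum_mem fun b _ => ?_
    by_cases h0 : Z a b = 0
    · simp [h0]
    · exact W.smul_mem _ (hE a b (h a b h0).1 (h a b h0).2 G hG)
  have sp3 : ∀ Z Z', Sp Z → Sp Z' → ∀ c : K, Sp (Z + c • Z') := fun Z Z' h h' c t' t h0 => by
    by_cases h3 : Z t' t = 0
    · exact h' t' t fun h4 => h0 (by simp [h3, h4])
    · exact h t' t h3
  have sp4 : ∀ A Z B : MM e n K, (∀ t' t, A t' t ≠ 0 → cl t' = cl t) → Sp Z →
      (∀ t' t, B t' t ≠ 0 → cl t' = cl t) → Sp (A * Z * B) := fun A Z B hA hZ hB t' t h0 => by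
    obtain ⟨u, -, h3⟩ := Finset.exists_ne_zero_of_sum_ne_zero h0
    obtain ⟨u', -, h4⟩ := Finset.exists_ne_zero_of_sum_ne_zero (left_ne_zero_of_mul h3)
    exact ⟨(hA _ _ (left_ne_zero_of_mul h4)).trans (hZ _ _ (right_ne_zero_of_mul h4)).1,
      (hB _ _ (right_ne_zero_of_mul h3)).symm.trans (hZ _ _ (right_ne_zero_of_mul h4)).2⟩
  have one : ∀ t' t, (1 : MM e n K) t' t ≠ 0 → cl t' = cl t := fun t' t h => by
    by_contra h3
    exact h (Matrix.one_apply_ne fun h4 => h3 (h4 ▸ rfl))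
  let L : Submodule K (MM e n K) :=
    { carrier := {Z | Sp Z ∧ ∀ o ∈ YY (om p r s) r W Φ, o (der Z Φ) ∈ W}
      zero_mem' := ⟨fun _ _ h => (h rfl).elim, fun o _ => by simp⟩
      add_mem' := fun {Z Z'} h h' => ⟨by simpa using sp3 Z Z' h.1 h'.1 1, fun o ho => by
        simpa using add_mem (h.2 o ho) (h'.2 o ho)⟩
      smul_mem' := fun c Z h => ⟨fun t' t h0 => h.1 t' t (right_ne_zero_of_mul h0), fun o ho => by
        simpa using W.smul_mem c (h.2 o ho)⟩ }
  have l1 : ∀ Z ∈ L, ∀ o ∈ YY (om p r s) r W Φ, der Z * o - o * der Z ∈ YY (om p r s) r W Φ :=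
    fun Z hZ o ho => ⟨od_der (cls_om (sp1 Z hZ.1)) ho.1,
      sub_mem (mul_mem (cp_der (cls_om (sp1 Z hZ.1))) ho.2.1)
        (mul_mem ho.2.1 (cp_der (cls_om (sp1 Z hZ.1)))),
      fun G hG => sub_mem (sp2 Z hZ.1 _ (ho.2.2.1 G hG)) (ho.2.2.1 _ (sp2 Z hZ.1 G hG)),
      sub_mem (sp2 Z hZ.1 _ ho.2.2.2) (hZ.2 o ho)⟩
  have l2 : ∀ Z ∈ L, ∀ Z' ∈ L, ∀ o ∈ YY (om p r s) r W Φ, o (der Z (der Z' Φ)) ∈ W :=
    fun Z hZ Z' hZ' o ho => by
      simpa using sub_mem (sp2 Z hZ.1 _ (hZ'.2 o ho)) (hZ'.2 _ (l1 Z hZ o ho))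
  have l3 : ∀ A ∈ 𝒜, ∀ B ∈ 𝒜, A * B = 1 → B * A = 1 → ∀ X ∈ L.map (sub s),
      sub s A * X * sub s B ∈ L.map (sub s) := by
    rintro A hA B hB h3 h4 _ ⟨Z, hZ, rfl⟩
    refine ⟨A * Z * B, ⟨sp4 A Z B (D.cls A hA) hZ.1 (D.cls B hB), fun o ho => ?_⟩, by
      rw [sub_mul' _ (D.cls B hB), sub_mul' _ (sp1 Z hZ.1)]⟩
    have h5 := yy_conj D hW hΦ hB hA h4 ho
    have h6 := hW A hA _ (add_mem (hZ.2 _ h5) (h5.2.2.1 _ (sp2 Z hZ.1 _ (hΦ B hB))))
    rw [← map_add, ← map_add, add_sub_cancel] at h6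
    rw [der_conj h3]
    simpa only [End.mul_apply, sl_apply, sg_sg h3] using h6
  have l4 : ∀ A ∈ 𝒜, ∀ B ∈ 𝒜, A * B = 1 → sub s A * sub s B = 1 := fun A _ B hB h => by
    rw [← sub_mul' _ (D.cls B hB), h]
    exact Matrix.submatrix_one _ Subtype.val_injective
  have sps : ∀ a b, cl a = s → cl b = s → Sp (Matrix.single a b 1) := fun a b ha hb t' t h => by
    obtain ⟨rfl, rfl⟩ : a = t' ∧ b = t := by
      by_contra h3
      exact h (Matrix.single_apply_of_ne _ _ _ _ _ h3)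
    exact ⟨ha, hb⟩
  have sbs : ∀ a b : {t : ZMod (e * n) // cl t = s},
      sub s (Matrix.single a.1 b.1 (1 : K)) = Matrix.single a b 1 := fun a b => by
    ext c d
    change Matrix.single a.1 b.1 (1 : K) c d = _
    simp [Matrix.single_apply, Subtype.ext_iff]
  let π : Equiv.Perm {t : ZMod (e * n) // cl t = s} := (Equiv.addRight (e : ZMod (e * n))).subtypePerm
    fun t => by simp [cl_add, cl_natCast]
  have hπ : ∀ (k : ℕ) t, ((π ^ k) t).1 = t.1 + (k * e : ℕ) := fun k t => by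
    induction k with
    | zero => simp
    | succ k ih =>
      rw [pow_succ', Equiv.Perm.mul_apply, show ∀ u, (π u).1 = u.1 + e from fun _ => rfl, ih]
      push_cast; ring
  obtain ⟨d0, d1⟩ := diag_inv D
  obtain ⟨P, hP, hP1⟩ := D.shift
  obtain ⟨P', hP', hP2, hP3⟩ := D.inv P hP
  obtain ⟨M, hM0, t, t₁, t₂, m1, m2, m3⟩ := D.nonmono
  obtain ⟨M', hM', hM2, hM3⟩ := D.inv M hM0
  have mv : ∀ (k : ℕ) t' t, M t' t ≠ 0 → M (t' + k) (t + k) ≠ 0 := fun k t' t h => by
    induction k with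
    | zero => simpa using h
    | succ k ih =>
      rw [Nat.cast_succ, ← add_assoc, ← add_assoc, D.frob M hM0]
      exact pow_ne_zero _ ih
  have mc : ∀ u : ZMod (e * n), cl u = cl t → cl (u + ((s - cl t).val : ZMod (e * n))) = s := fun u hu => by
    rw [cl_add, cl_natCast, ZMod.natCast_zmod_val, hu, add_sub_cancel]
  have top := hM K _ π (L.map (sub s)) (fun t => θ ^ p ^ t.1.val) (sub s P) (sub s P') (sub s M)
    (sub s M') (by rwa [card_cl])
    (fun a b => by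
      obtain ⟨k, hk⟩ := exists_add_of_cl (a.2.trans b.2.symm)
      exact ⟨k, Subtype.ext (by rw [hπ, hk])⟩)
    (by
      rintro _ ⟨Z, hZ, rfl⟩ _ ⟨Z', hZ', rfl⟩
      refine ⟨Z * Z' - Z' * Z, ⟨?_, fun o ho => ?_⟩, by
        rw [map_sub, sub_mul' _ (sp1 Z hZ.1), sub_mul' _ (sp1 Z' hZ'.1)]⟩
      · simpa [← sub_eq_add_neg] using sp3 _ _ (sp4 1 Z Z' one hZ.1 (sp1 Z' hZ'.1))
          (sp4 1 Z' Z one hZ'.1 (sp1 Z hZ.1)) (-1)
      · rw [der_comm, LinearMap.sub_apply, map_sub]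
        exact sub_mem (l2 Z hZ Z' hZ' o ho) (l2 Z' hZ' Z hZ o ho))
    (fun a => ⟨_, ⟨sps a a a.2 a.2, fun o ho => by
      rw [der_single]
      simpa using sub_mem (hE a a a.2 a.2 _ ho.2.2.2) (yy_self hp D hW hΦ a.2 ho)⟩, sbs a a⟩)
    (fun a => d0 a)
    (fun a b h => by
      have := D.sep s (Pi.single a.1 2) (Pi.single b.1 2)
        (fun t ht => by
          obtain rfl : t = a.1 := by
            by_contra h3
            exact ht (Pi.single_eq_of_ne h3 _)
          exact a.2)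
        (fun t ht => by
          obtain rfl : t = b.1 := by
            by_contra h3
            exact ht (Pi.single_eq_of_ne h3 _)
          exact b.2) (by simp) (by simpa using hr)
        (by simpa [val, Pi.single_apply, mul_comm 2, pow_mul] using h)
      by_contra h3
      simpa [Pi.single_eq_of_ne fun h4 => h3 (Subtype.ext h4)] using congrFun this a.1)
    (fun X hX => by
      have e1 : ∀ d : ZMod (e * n) → K, sub s (Matrix.diagonal d) =
          Matrix.diagonal fun t => d t.1 := fun d =>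
        Matrix.submatrix_diagonal _ _ Subtype.val_injective
      have e2 : ∀ d : ZMod (e * n) → K, (∀ t, d t = 1) → Matrix.diagonal d = 1 := fun d h => by
        rw [funext h, Matrix.diagonal_one]
      have := l3 _ D.diag _ d1
        (by rw [Matrix.diagonal_mul_diagonal]; exact e2 _ fun t => mul_inv_cancel₀ (d0 t))
        (by rw [Matrix.diagonal_mul_diagonal]; exact e2 _ fun t => inv_mul_cancel₀ (d0 t)) X hX
      rwa [e1, e1] at this)
    (l4 P hP P' hP' hP2) (fun a b => (hP1 a b).trans (Subtype.ext_iff (a2 := π b)).symm)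
    (l3 P hP P' hP' hP2 hP3) (l4 M hM0 M' hM' hM2)
    ⟨⟨_, mc t rfl⟩, ⟨_, mc t₁ (D.cls M hM0 _ _ m2)⟩, ⟨_, mc t₂ (D.cls M hM0 _ _ m3)⟩,
      fun h => m1 (add_right_cancel (congrArg Subtype.val h)), mv _ _ _ m2, mv _ _ _ m3⟩
    (l3 M hM0 M' hM' hM2 hM3)
  obtain ⟨Z, hZ, h3⟩ := top.ge (Submodule.mem_top (x := Matrix.single ⟨a, ha⟩ ⟨b, hb⟩ 1))
  have h4 : Z = Matrix.single a b 1 := by
    ext t' t
    by_cases h4 : cl t' = s ∧ cl t = s
    · exact congrFun (congrFun (h3.trans (sbs ⟨a, ha⟩ ⟨b, hb⟩).symm) ⟨t', h4.1⟩) ⟨t, h4.2⟩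
    · rw [not_not.1 fun h => h4 (hZ.1 t' t h), not_not.1 fun h => h4 (sps a b ha hb t' t h)]
  have h5 := hZ.2 (dop f) ⟨by simpa [← End.one_eq_id] using od_dop hf 0, cp_dop _ f, h1, h2⟩
  rwa [h4, der_single] at h5

end H86.SG
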