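/- Tower SG: the second level. -/
import Cfsg.Agent.H86.SGOp
import Cfsg.Agent.H17.SGC1

set_option autoImplicit false

namespace H86.SG

open Finsupp Module H53.SG H17.SG1
open scoped Classical

universe v

variable {p e n D : ℕ} [NeZero (e * n)] {K : Type v} [Field K] {c : Mon e n → K}

theorem cd_add (m m' : Mon e n) (k : Bool) (s : ZMod e) : cd (m + m') k s = cd m k s + cd m' k s := by
  simp [cd, Finset.sum_add_distrib]

theorem cd_single (k k' : Bool) (t : ZMod (e * n)) (j : ℕ) (s : ZMod e) :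
    cd (single (k, t) j : Mon e n) k' s = if k = k' ∧ cl t = s then j else 0 := by
  by_cases h : k = k' <;> simp [cd, single_apply, h]

theorem dg_add (m m' : Mon e n) : dg (m + m') = dg m + dg m' := by
  simp [dg, Finset.sum_add_distrib]

theorem dg_single (v : Vr e n) (j : ℕ) : dg (single v j : Mon e n) = j := by
  simp [dg, single_apply]

theorem dg_eta (m : Mon e n) : dg m = ∑ t, eta m t := by
  simp [dg, eta, Fintype.sum_prod_type, Finset.sum_add_distrib, add_comm]

theorem cd_eta (m : Mon e n) (s : ZMod e) :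
    cd m false s + cd m true s = ∑ t with cl t = s, eta m t := by
  simp [cd, eta, Finset.sum_add_distrib]

theorem cd_per {m : Mon e n} {s : ZMod e} {x : ℕ} (h : ∀ t, cl t = s → eta m t = x) :
    cd m false s + cd m true s = n * x := by
  rw [cd_eta, Finset.sum_congr rfl fun t ht => h t (Finset.mem_filter.1 ht).2, Finset.sum_const,
    ← Fintype.card_subtype, card_cl, smul_eq_mul]

theorem sum_cd [NeZero e] (m : Mon e n) (k : Bool) : ∑ s, cd m k s = ∑ t, m (k, t) :=
  Finset.sum_fiberwise _ _ _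

omit [NeZero (e * n)] in
theorem exists_cl (s : ZMod e) : ∃ t : ZMod (e * n), cl t = s :=
  ZMod.castHom_surjective _ s

omit [NeZero (e * n)] in
theorem cl_succ_ne (he : 2 ≤ e) (s : ZMod e) : s + 1 ≠ s := by
  have := Fact.mk (show 1 < e from he)
  simp

theorem noOther (he : 2 ≤ e) (hp : p.Prime) (hn : 5 ≤ n) (hT : Top p c D) {m m₀ : Mon e n}
    (hd : dg m = D) (per : ∀ t t', cl t = cl t' → eta m t = eta m t')
    (tri : ∀ t, eta m t = 0 ∨ eta m t = p - 1 ∨ eta m t = 2 * (p - 1)) {k : Bool}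
    {a b : ZMod (e * n)} (hcl : cl a = cl b)
    (h0 : m₀ + single (k, a) (p - 1) + single (k, b) 1 = m + single (k, a + 1) 1) :
    NoOther p c (cl a) m₀ := fun m' hm' k' s' hs h => by
  have : NeZero e := ⟨by omega⟩
  have p2 := hp.two_le
  have h1 : dg m' = D := by
    have a1 := congrArg dg h0
    have a2 : ∑ k'', ∑ s'', (cd m' k'' s'' + if k'' = k' ∧ s'' = s' + 1 then 1 else 0) =
        ∑ k'', ∑ s'', (cd m₀ k'' s'' + if k'' = k' ∧ s'' = s' then p else 0) := by
      simp only [h]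
    simp only [Finset.sum_add_distrib, sum_cd, ite_and, Finset.sum_ite_irrel, Finset.sum_ite_eq',
      Finset.mem_univ, if_true, Finset.sum_const_zero, ← Fintype.sum_prod_type'] at a2
    simp only [dg_add, dg_single] at a1
    change dg m' + 1 = dg m₀ + p at a2
    omega
  obtain ⟨t, rfl⟩ := exists_cl (n := n) s'
  have b1 := cd_per fun t' ht => hT.per m' hm' h1 t' t ht
  have b2 := cd_per fun t' ht => per t' t ht
  have b3 := congrArg (cd · false (cl t)) h0
  have b4 := congrArg (cd · true (cl t)) h0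
  have b5 := h false (cl t)
  have b6 := h true (cl t)
  simp only [cd_add, cd_single, ← hcl, hs.symm, and_false, if_false, add_zero] at b3 b4
  simp only [(cl_succ_ne he _).symm, and_false, if_false, add_zero, and_true] at b5 b6
  have b7 : 5 * (p - 1) ≤ n * (p - 1) := Nat.mul_le_mul_right _ hn
  have b8 : n * (2 * (p - 1)) = 2 * (n * (p - 1)) := by ring
  rcases hT.tri m' hm' h1 t with c1 | c1 | c1 <;> rcases tri t with c2 | c2 | c2 <;>
    rw [c1] at b1 <;> rw [c2] at b2 <;> cases k <;> cases k' <;>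
    simp only [Bool.false_eq_true, Bool.true_eq_false, false_and, true_and, if_true, if_false]
      at b3 b4 b5 b6 <;> split_ifs at b3 b4 <;> omega

omit [NeZero (e * n)] in
theorem cE_up (hS : ∀ m, c m ≠ 0 → Red p m) {a b : ZMod (e * n)} (hab : a ≠ b) {m : Mon e n}
    {v : Vr e n} (h1 : v.2 + 1 ≠ v.2) (h2 : v.2 + 1 ≠ b) (hp : p ≠ 0) :
    cE c a b (up p m v) = if v.2 = a ∧ m v = 0 then
      ((m (v.1, b) + 1 : ℕ) : K) * c (up p m v - single v 1 + single (v.1, b) 1) else 0 := by
  obtain ⟨k, t⟩ := v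
  have h3 : up p m (k, t) (k, t) = m (k, t) + p := by simp [up, nx, h1]
  have key : ∀ k', ¬ (k' = k ∧ t = a ∧ m (k, t) = 0) →
      c (up p m (k, t) - single (k', a) 1 + single (k', b) 1) = 0 := fun k' h => by
    by_contra h4
    have := hS _ h4 (k, t)
    simp only [Finsupp.add_apply, coe_tsub, Pi.sub_apply, h3, single_apply, Prod.mk.injEq] at this
    split_ifs at this with h5 <;> simp_all <;> omega
  rw [cE]
  split_ifs with h
  · obtain ⟨rfl, h4⟩ := h
    rw [Finset.sum_eq_single k (fun k' _ h5 => by rw [key k' fun h6 => h5 h6.1]; simp) (by simp),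
      if_neg (by rw [h3]; omega)]
    simp [up, nx, h2, hab]
  · exact Finset.sum_eq_zero fun k' _ => by rw [key k' fun h6 => h h6.2]; simp

variable [CharP K p]

omit [NeZero (e * n)] in
theorem cast_ne {j : ℕ} (h0 : j ≠ 0) (h : j < p) : (j : K) ≠ 0 := fun h1 =>
  h0 (Nat.eq_zero_of_dvd_of_lt ((CharP.cast_eq_zero_iff K p _).1 h1) h)

/-- the carry move -/
theorem carry (he : 2 ≤ e) (hp : p.Prime) (hn : 5 ≤ n) (hS : Sup p c D) (hT : Top p c D)
    (hR : R2 p c D) {m : Mon e n} (hr : Red p m) (hd : dg m = D)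
    (per : ∀ t t', cl t = cl t' → eta m t = eta m t')
    (tri : ∀ t, eta m t = 0 ∨ eta m t = p - 1 ∨ eta m t = 2 * (p - 1)) {k : Bool}
    {a b : ZMod (e * n)} (hab : a ≠ b) (hcl : cl a = cl b) (h1 : m (k, a) = p - 1)
    (h2 : m (k, b) ≠ 0) (h3 : m (k, a + 1) < p - 1) :
    (¬ (m (!k, a) = 0 ∧ m (!k, a + 1) ≠ 0) → c m = 0) ∧
    (m (!k, a) = 0 ∧ m (!k, a + 1) ≠ 0 → ∃ m', m' + single (k, a) (p - 1) +
      single (k, b) 1 + single (!k, a + 1) 1 = m + single (k, a + 1) 1 + single (!k, a) (p - 1) +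
      single (!k, b) 1 ∧ (m (k, b) : K) * c m + ((m (!k, b) + 1 : ℕ) : K) * c m' = 0) := by
  have p2 := hp.two_le
  have ne : ∀ t t' : ZMod (e * n), cl t = cl t' → t + 1 ≠ t' := fun t t' h h' =>
    cl_succ_ne he (cl t) (by rw [← cl_one (n := n), ← cl_add, h', h])
  have n1 := ne a a rfl
  have n2 := ne a b hcl
  have n3 := ne b a hcl.symm
  have n4 := ne b b rfl
  obtain ⟨m₀, h0⟩ : ∃ m₀, m₀ + single (k, a) (p - 1) + single (k, b) 1 = m + single (k, a + 1) 1 :=
    ⟨m - single (k, a) (p - 1) - single (k, b) 1 + single (k, a + 1) 1, by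
      rw [add_right_comm, add_right_comm _ _ (single (k, b) 1), tsub_add_cancel_of_le
        (single_le_iff.2 (by simp [hab.symm]; omega)), add_right_comm,
        tsub_add_cancel_of_le (single_le_iff.2 h1.ge)]⟩
  have f0 : ∀ k' t, m₀ (k', t) + (if k = k' ∧ a = t then p - 1 else 0) +
      (if k = k' ∧ b = t then 1 else 0) = m (k', t) + if k = k' ∧ a + 1 = t then 1 else 0 :=
    fun k' t => by
      simpa only [Finsupp.add_apply, single_apply, Prod.mk.injEq] using congrArg (· (k', t)) h0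
  have f1 : ∀ t, m₀ (!k, t) = m (!k, t) := fun t => by simpa using f0 (!k) t
  have f2 : m₀ (k, a) = 0 := by simpa [n1, hab.symm, h1] using f0 k a
  have f3 : m₀ (k, b) + 1 = m (k, b) := by simpa [n2, hab] using f0 k b
  have f4 : m₀ (k, a + 1) = m (k, a + 1) + 1 := by simpa [n1.symm, n2.symm] using f0 k (a + 1)
  have f5 : m₀ (k, b + 1) = m (k, b + 1) := by simpa [n3.symm, n4.symm, hab] using f0 k (b + 1)
  have e1 := per a b hcl
  have e2 := per (a + 1) (b + 1) (by rw [cl_add, cl_add, hcl])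
  have e3 := tri a
  simp only [eta_eq _ k] at e1 e2 e3
  have h4 := hR he a b m₀ hab hcl (fun ⟨k', t⟩ => by
      have := f0 k' t
      have := hr (k', t)
      split_ifs at * <;> simp_all <;> omega)
    (by
      have := congrArg dg h0
      simp only [dg_add, dg_single] at this
      omega)
    (by simp only [C2, eta_eq _ k, f1]; omega) (noOther he hp hn hT hd per tri hcl h0)
  have h5 : cE c a b m₀ = 0 := Finset.sum_eq_zero fun k' _ => by
    by_cases hk : k' = k
    · rw [hk, if_pos f2]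
    · obtain rfl : k' = !k := Bool.eq_not.2 hk
      split_ifs with h
      · rfl
      · have := hr (!k, b)
        have := hr (k, b)
        have := hr (!k, a)
        rw [f1] at h
        rw [f1, show m (!k, b) + 1 = p by omega, CharP.cast_eq_zero, zero_mul]
  have h6 : up p m₀ (k, a) - single (k, a) 1 + single (k, b) 1 = m := by
    ext ⟨k', t⟩
    have := f0 k' t
    simp only [up, nx, Finsupp.add_apply, coe_tsub, Pi.sub_apply, single_apply, Prod.mk.injEq]
    split_ifs at * <;> simp_all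
  rw [h5, zero_add, Finset.sum_congr rfl fun v hv => by
    rw [cE_up hS.red hab (ne _ _ rfl) (ne _ _ ((Finset.mem_filter.1 hv).2.trans hcl)) hp.ne_zero],
    Finset.sum_eq_add_of_mem (k, a) (!k, a) (by simp) (by simp) (by simp) fun v _ hv => by
      obtain ⟨k', t⟩ := v
      have : t ≠ a := by
        rintro rfl
        cases k <;> cases k' <;> simp at hv
      simp [this]] at h4
  simp only [nx, f1, f2, f3, f4, h6, true_and, if_true, Nat.add_one_ne_zero,
    if_false] at h4
  refine ⟨fun h7 => (mul_eq_zero.1 ?_).resolve_left (cast_ne h2 (hr _)), fun h7 => ?_⟩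
  · rw [← h4]
    split_ifs <;> simp_all
  · rw [if_neg h7.2, if_pos h7.1] at h4
    refine ⟨_, ?_, h4⟩
    have h8 : single (!k, a) p = single (!k, a) (p - 1) + single (!k, a) 1 := by
      rw [← single_add, Nat.sub_add_cancel hp.one_le]
    have h9 : m₀ - single (!k, a + 1) 1 + single (!k, a + 1) 1 = m₀ :=
      tsub_add_cancel_of_le (single_le_iff.2 (by have := h7.2; rw [f1]; omega))
    rw [up, h8, ← add_assoc, add_tsub_cancel_right, ← h0, nx]
    dsimp only
    conv_rhs => rw [← h9]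
    ac_rfl

omit [CharP K p] in
theorem mv_spec {m : Mon e n} {k : Bool} {a b : ZMod (e * n)} (hab : a ≠ b) (hcl : cl a = cl b)
    (h1 : m (k, b) ≠ 0) (h2 : m (!k, a) ≠ 0) : eta (mv m k a b) = eta m ∧ dg (mv m k a b) = dg m ∧
      (∀ k' s, cd (mv m k a b) k' s = cd m k' s) ∧
      (∀ k' t, t ≠ a → t ≠ b → mv m k a b (k', t) = m (k', t)) ∧ mv (mv m k a b) k b a = m := by
  have h0 : mv m k a b + single (k, b) 1 + single (!k, a) 1 =
      m + single (k, a) 1 + single (!k, b) 1 := by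
    have a1 : m - single (k, b) 1 + single (k, b) 1 = m :=
      tsub_add_cancel_of_le (single_le_iff.2 (by omega))
    have a2 : m - single (k, b) 1 - single (!k, a) 1 + single (!k, a) 1 = m - single (k, b) 1 :=
      tsub_add_cancel_of_le (single_le_iff.2 (by simp; omega))
    rw [mv]
    conv_rhs => rw [← a1, ← a2]
    ac_rfl
  obtain ⟨a1, a2, a3, a4⟩ := mv_apply m k hab
  have a5 : ∀ k' t, t ≠ a → t ≠ b → mv m k a b (k', t) = m (k', t) := fun k' t h h' => by
    simp [mv, h, h']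
  have a6 : eta (mv m k a b) = eta m := funext fun t => by
    rw [eta_eq _ k, eta_eq m k]
    by_cases h7 : t = a
    · rw [h7, a2, a3]; omega
    by_cases h8 : t = b
    · rw [h8, a1, a4]; omega
    · rw [a5 _ _ h7 h8, a5 _ _ h7 h8]
  refine ⟨a6, by rw [dg_eta, dg_eta, a6], fun k' s => ?_, a5, ?_⟩
  · have := congrArg (cd · k' s) h0
    simp only [cd_add, cd_single, hcl] at this
    omega
  · obtain ⟨b1, b2, b3, b4⟩ := mv_apply (mv m k a b) k hab.symm
    ext ⟨k', t⟩
    by_cases h7 : t = a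
    · subst h7
      by_cases hk : k' = k
      · rw [hk, b1, a2]; omega
      · rw [Bool.eq_not.2 hk, b4, a3]; omega
    by_cases h8 : t = b
    · subst h8
      by_cases hk : k' = k
      · rw [hk, b2, a1]; omega
      · rw [Bool.eq_not.2 hk, b3, a4]; omega
    · rw [← a5 k' t h7 h8]; simp [mv, h7, h8]

omit [CharP K p] in
theorem mv_eq (hp : p.Prime) (hT : Top p c D) {m : Mon e n} (hd : dg m = D) {k : Bool}
    {a b : ZMod (e * n)} (hab : a ≠ b) (hcl : cl a = cl b) (ha : eta m a = p - 1)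
    (hb : eta m b = p - 1) (h1 : m (k, b) ≠ 0) (h2 : m (k, a) + 1 < p) : c (mv m k a b) = c m := by
  have p2 := hp.two_le
  by_cases h0 : c m = 0
  swap
  · exact hT.move m h0 hd a b k hab hcl ha h1 h2
  by_contra h3
  rw [eta_eq m k] at ha hb
  obtain ⟨a1, a2, -, -, a5⟩ := mv_spec hab hcl h1 (show m (!k, a) ≠ 0 by omega)
  obtain ⟨b1, b2, -, -⟩ := mv_apply m k hab
  exact h3 ((hT.move _ (h0 ▸ h3) (a2.trans hd) b a k hab.symm hcl.symm
    (by rw [a1, eta_eq m k, hb]) (by omega) (by omega)).symm.trans (congrArg c a5))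

omit [CharP K p] in
theorem conn (hp : p.Prime) (hT : Top p c D) {m m' : Mon e n} (hd : dg m = D)
    (h1 : ∀ t, eta m t = p - 1) (h2 : ∀ t, eta m' t = p - 1)
    (h3 : ∀ s, cd m false s = cd m' false s) : c m = c m' := by
  have p2 := hp.two_le
  induction hk : ∑ t, (m (false, t) - m' (false, t)) using Nat.strong_induction_on
    generalizing m with
  | _ N ih =>
  have key : ∀ {m m' : Mon e n} (b : ZMod (e * n)), cd m false (cl b) = cd m' false (cl b) →
      m' (false, b) < m (false, b) → ∃ a, cl a = cl b ∧ m (false, a) < m' (false, a) :=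
    fun {m m'} b h h' => by
      by_contra! h4
      exact (Finset.sum_lt_sum (fun t ht => h4 t (Finset.mem_filter.1 ht).2)
        ⟨b, by simp, h'⟩).ne' h
  by_cases h4 : ∃ b, m' (false, b) < m (false, b)
  · obtain ⟨b, hb⟩ := h4
    obtain ⟨a, hcl, ha⟩ := key b (h3 _) hb
    have hab : a ≠ b := by rintro rfl; omega
    have a0 := h1 a
    have a0' := h2 a
    rw [eta] at a0 a0'
    obtain ⟨a1, a2, a3, a4, -⟩ := mv_spec (k := false) hab hcl (show m (false, b) ≠ 0 by omega)
      (show m (true, a) ≠ 0 by omega)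
    obtain ⟨b1, b2, -, -⟩ := mv_apply m false hab
    rw [← mv_eq hp hT hd (k := false) hab hcl (h1 a) (h1 b) (by omega) (by omega)]
    refine ih _ (hk ▸ Finset.sum_lt_sum (fun t _ => ?_) ⟨b, Finset.mem_univ _, by omega⟩)
      (a2.trans hd) (a1 ▸ h1) (fun s => (a3 _ s).trans (h3 s)) rfl
    by_cases h7 : t = a
    · rw [h7]; omega
    by_cases h8 : t = b
    · rw [h8]; omega
    · rw [a4 _ _ h7 h8]
  · have h5 : ∀ t, m (false, t) = m' (false, t) := fun t => by
      by_contra h5
      obtain ⟨a, -, ha⟩ := key t (h3 _).symm (by push Not at h4; have := h4 t; omega)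
      exact h4 ⟨a, ha⟩
    congr 1
    ext ⟨k, t⟩
    have a1 := h1 t
    have a2 := h2 t
    have := h5 t
    rw [eta] at a1 a2
    cases k <;> omega

omit [CharP K p] in
theorem conc (hp : p.Prime) (hT : Top p c D) {m : Mon e n} (hd : dg m = D) (hr : Red p m)
    {k : Bool} {a : ZMod (e * n)} (h1 : ∀ t, cl t = cl a → eta m t = p - 1)
    (h2 : p ≤ cd m k (cl a)) : ∃ m', c m' = c m ∧ eta m' = eta m ∧ Red p m' ∧
      (∀ k' s, cd m' k' s = cd m k' s) ∧ (∀ k' t, cl t ≠ cl a → m' (k', t) = m (k', t)) ∧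
      m' (k, a) = p - 1 ∧ ∃ b, a ≠ b ∧ cl a = cl b ∧ m' (k, b) ≠ 0 := by
  have p2 := hp.two_le
  induction hk : p - m (k, a) using Nat.strong_induction_on generalizing m with
  | _ N ih =>
  have h3 := hr (k, a)
  obtain ⟨b, hab, hcl, hb⟩ : ∃ b, a ≠ b ∧ cl a = cl b ∧ m (k, b) ≠ 0 := by
    by_contra! h4
    rw [cd, Finset.sum_eq_single a (fun b hb h5 => h4 b h5.symm (Finset.mem_filter.1 hb).2.symm)
      (by simp)] at h2
    omega
  by_cases h4 : m (k, a) = p - 1
  · exact ⟨m, rfl, rfl, hr, fun _ _ => rfl, fun _ _ _ => rfl, h4, b, hab, hcl, hb⟩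
  have a0 := h1 a rfl
  rw [eta_eq m k] at a0
  obtain ⟨a1, a2, a3, a4, -⟩ := mv_spec hab hcl hb (show m (!k, a) ≠ 0 by omega)
  obtain ⟨-, b2, -, -⟩ := mv_apply m k hab
  have a5 : ∀ k' t, cl t ≠ cl a → mv m k a b (k', t) = m (k', t) := fun k' t h =>
    a4 k' t (fun h' => h (h' ▸ rfl)) fun h' => h (h' ▸ hcl.symm)
  obtain ⟨m', c1, c2, c3, c4, c5, c6⟩ := ih _ (by omega) (a2.trans hd) (fun ⟨k', t⟩ => by
    by_cases h : cl t = cl a
    · have := h1 t h
      rw [← a1, eta_eq _ k'] at this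
      omega
    · rw [a5 k' t h]; exact hr _) (a1 ▸ h1) (a3 _ _ ▸ h2) rfl
  exact ⟨m', c1.trans (mv_eq hp hT hd hab hcl (h1 a rfl) (h1 b hcl.symm) hb (by omega)),
    c2.trans a1, c3, fun k' s => (c4 k' s).trans (a3 k' s),
    fun k' t h => (c5 k' t h).trans (a5 k' t h), c6⟩

theorem cyc_ind {N : ℕ} [NeZero N] {P : ZMod N → Prop} (h : ∀ t, P t → P (t + 1)) {a : ZMod N}
    (ha : P a) (t : ZMod N) : P t := by
  have : ∀ i : ℕ, P (a + i) := fun i => by
    induction i with
    | zero => simpa using ha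
    | succ i ih => rw [Nat.cast_succ, ← add_assoc]; exact h _ ih
  simpa using this (t - a).val

theorem part1 (hp : p.Prime) (hn : 5 ≤ n) (hS : Sup p c D) (hT : Top p c D) (hR : R2 p c D)
    {m : Mon e n} (hm : c m ≠ 0) (hd : dg m = D) (t t' : ZMod (e * n)) : eta m t = eta m t' := by
  have he0 : 0 < e := Nat.pos_of_mul_pos_right (NeZero.pos (e * n))
  have p2 := hp.two_le
  have per := hT.per m hm hd
  have tri := hT.tri m hm hd
  have hr := hS.red m hm
  rcases (show e = 1 ∨ 2 ≤ e by omega) with rfl | he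
  · exact per t t' (Subsingleton.elim _ _)
  suffices h : ∀ a, eta m a ≤ eta m (a + 1) from le_antisymm
    (cyc_ind (P := fun u => eta m t ≤ eta m u) (fun u hu => hu.trans (h u)) le_rfl t')
    (cyc_ind (P := fun u => eta m t' ≤ eta m u) (fun u hu => hu.trans (h u)) le_rfl t)
  intro a
  by_contra! h
  have ne : cl (a + 1) ≠ cl a := by rw [cl_add, cl_one]; exact cl_succ_ne he _
  rcases tri a with h1 | h1 | h1
  · omega
  · have h2 : eta m (a + 1) = 0 := by have := tri (a + 1); omega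
    have h3 := cd_per fun t ht => (per t a ht).trans h1
    have h4 : 5 * (p - 1) ≤ n * (p - 1) := Nat.mul_le_mul_right _ hn
    obtain ⟨k, hk⟩ : ∃ k, p ≤ cd m k (cl a) := by
      by_contra! h5
      have := h5 false
      have := h5 true
      omega
    obtain ⟨m', c1, c2, c3, -, c5, c6, b, hab, hcl, hb⟩ :=
      conc hp hT hd hr (fun t ht => (per t a ht).trans h1) hk
    rw [← c2, eta_eq _ k] at h2
    exact hm (c1 ▸ (carry he hp hn hS hT hR c3 (by rw [dg_eta, c2, ← dg_eta, hd]) (c2 ▸ per)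
      (c2 ▸ tri) hab hcl c6 hb (by omega)).1 (by omega))
  · obtain ⟨k, hk⟩ : ∃ k, m (k, a + 1) < p - 1 := by
      by_contra! h5
      have := h5 false
      have := h5 true
      rw [h1, eta] at h
      omega
    have hab : a ≠ a + (1 : ℕ) * e := by
      simpa using e_ne (e := e) (n := n) (by omega) (i := 1) one_pos (by norm_num)
    have h2 := per _ _ (cl_e a 1)
    rw [h1] at h2
    rw [eta_eq _ k] at h1 h2
    have := hr (k, a)
    have := hr (!k, a)
    have := hr (!k, a + (1 : ℕ) * e)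
    exact hm ((carry he hp hn hS hT hR hr hd per tri (k := k) hab (cl_e a 1).symm (by omega)
      (by omega) hk).1 (by omega))

omit [NeZero (e * n)] in
theorem pow_mod_cast (p e i : ℕ) (hp : 0 < p) :
    (p : ZMod (p ^ e - 1)) ^ (i % e) = (p : ZMod (p ^ e - 1)) ^ i := by
  have h1 : (p : ZMod (p ^ e - 1)) ^ e = 1 := by
    have := ZMod.natCast_self (p ^ e - 1)
    rwa [Nat.cast_sub (Nat.one_le_pow _ _ hp), Nat.cast_pow, Nat.cast_one, sub_eq_zero] at this
  conv_rhs => rw [← Nat.mod_add_div i e, pow_add, pow_mul, h1, one_pow, mul_one]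

theorem vc_cast [NeZero e] (hp : 0 < p) (m : Mon e n) : (vc p m false : ZMod (p ^ e - 1)) =
    ∑ s : ZMod e, (cd m false s : ZMod (p ^ e - 1)) * p ^ s.val := by
  simp only [vc, val, cd, Nat.cast_sum, Nat.cast_mul, Nat.cast_pow, Finset.sum_mul]
  rw [← Finset.sum_fiberwise Finset.univ cl]
  refine Finset.sum_congr rfl fun s _ => Finset.sum_congr rfl fun t ht => ?_
  have : (cl t).val = t.val % e := by
    conv_lhs => rw [← ZMod.natCast_zmod_val t]
    rw [cl_natCast, ZMod.val_natCast]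
  rw [← (Finset.mem_filter.1 ht).2, this, pow_mod_cast _ _ _ hp]

omit [NeZero (e * n)] in
theorem digits_eq [NeZero e] (hp : 2 ≤ p) {l : ZMod e → ℕ} (h1 : ∀ s, l s ≤ p - 1)
    (h2 : ∃ s, l s ≠ 0) (h3 : ∑ s, (l s : ZMod (p ^ e - 1)) * p ^ s.val = 0) (s : ZMod e) :
    l s = p - 1 := by
  have h4 : ∑ s : ZMod e, (p - 1) * p ^ s.val = p ^ e - 1 := by
    obtain ⟨e, rfl⟩ := Nat.exists_eq_succ_of_ne_zero (NeZero.ne e)
    refine (Fin.sum_univ_eq_sum_range (fun i => (p - 1) * p ^ i) (e + 1)).trans ?_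
    rw [← Finset.mul_sum, mul_comm]
    have := geom_sum_mul_add (p - 1) (e + 1)
    rw [Nat.sub_add_cancel (by omega)] at this
    exact Nat.eq_sub_of_add_eq this
  have h5 : p ^ e - 1 ∣ ∑ s, l s * p ^ s.val := by
    rw [← ZMod.natCast_eq_zero_iff, ← h3]; push_cast; rfl
  obtain ⟨s₀, h6⟩ := h2
  have h7 := Nat.le_of_dvd (Finset.sum_pos' (fun _ _ => Nat.zero_le _)
    ⟨s₀, Finset.mem_univ _, by positivity⟩) h5
  by_contra h8
  exact h7.not_gt (h4 ▸ Finset.sum_lt_sum (fun s _ => Nat.mul_le_mul_right _ (h1 s))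
    ⟨s, Finset.mem_univ _, Nat.mul_lt_mul_of_pos_right (lt_of_le_of_ne (h1 s) h8) (by positivity)⟩)

theorem part2 [NeZero e] (he : 2 ≤ e) (hp : p.Prime) (hn : 5 ≤ n) (hS : Sup p c D) (hT : Top p c D)
    (hR : R2 p c D) (hD : ∀ m : Mon e n, (∀ t, eta m t = p - 1) → dg m = D) {m : Mon e n}
    (h1 : ∀ t, eta m t = p - 1) (h2 : ∃ s, cd m false s ≠ 0) (h3 : ∃ s, cd m true s ≠ 0)
    (h4 : ∑ s, (cd m false s : ZMod (p ^ e - 1)) * p ^ s.val = 0) :
    ∃ m', (∀ t, eta m' t = p - 1) ∧ (∀ s, cd m' false s = p - 1) ∧ c m' = c m := by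
  have p2 := hp.two_le
  have b7 : 5 * (p - 1) ≤ n * (p - 1) := Nat.mul_le_mul_right _ hn
  induction hk : ∑ s, cd m false s using Nat.strong_induction_on generalizing m with
  | _ N ih =>
  by_cases h5 : ∀ s, cd m false s ≤ p - 1
  · exact ⟨m, h1, digits_eq p2 h5 h2 h4, rfl⟩
  have h6 : ∀ s, cd m false s + cd m true s = n * (p - 1) := fun s => cd_per fun t _ => h1 t
  obtain ⟨s, s1, s2⟩ : ∃ s, p ≤ cd m false s ∧ cd m true (s + 1) ≠ 0 := by
    by_contra! h7
    push Not at h5
    obtain ⟨s₀, h8⟩ := h5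
    obtain ⟨s, hs⟩ := h3
    have := h7 _ (cyc_ind (P := fun s => p ≤ cd m false s) (fun s hs => by
      have := h7 s hs
      have := h6 (s + 1)
      omega) (a := s₀) (by omega) (s - 1))
    rw [sub_add_cancel] at this
    exact hs this
  obtain ⟨t, t1, t2⟩ := Finset.exists_ne_zero_of_sum_ne_zero s2
  obtain ⟨a, rfl⟩ : ∃ a, t = a + 1 := ⟨t - 1, by simp⟩
  obtain rfl : cl a = s := by simpa [cl_add, cl_one] using t1
  have hr : ∀ m : Mon e n, (∀ t, eta m t = p - 1) → Red p m := fun m h ⟨k, t⟩ => by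
    have := h t
    rw [eta_eq _ k] at this
    omega
  have ne : cl (a + 1) ≠ cl a := by rw [cl_add, cl_one]; exact cl_succ_ne he _
  obtain ⟨m', c1, c2, c3, c4, c5, c6, b, hab, hcl, hb⟩ :=
    conc hp hT (hD m h1) (hr m h1) (fun t _ => h1 t) s1
  rw [← c5 _ _ ne] at t2
  rw [← c2] at h1
  have e1 := h1 (a + 1)
  have e2 := h1 b
  rw [eta] at e1 e2
  rw [← c1]
  have key : ∀ m'' : Mon e n, m'' + single (false, a) (p - 1) + single (false, b) 1 +
      single (true, a + 1) 1 = m' + single (false, a + 1) 1 + single (true, a) (p - 1) +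
      single (true, b) 1 → ∃ m₁, (∀ t, eta m₁ t = p - 1) ∧ (∀ s, cd m₁ false s = p - 1) ∧
      c m₁ = c m'' := fun m'' h0 => by
    have d1 : ∀ s, cd m'' false s + (if cl a = s then p else 0) =
        cd m false s + if cl a + 1 = s then 1 else 0 := fun s => by
      have := congrArg (cd · false s) h0
      simp only [cd_add, cd_single, c4, ← hcl, cl_add, cl_one, true_and, Bool.true_eq_false,
        false_and, if_false] at this
      split_ifs at this ⊢ <;> omega
    have d2 := congrArg (cd · true (cl a)) h0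
    simp only [cd_add, cd_single, true_and, Bool.false_eq_true, false_and, if_false, ne, ← hcl,
      if_true] at d2
    refine ih _ ?_ (fun t => ?_) ⟨cl a + 1, ?_⟩ ⟨cl a, by omega⟩ ?_ rfl
    · have := Finset.sum_congr rfl fun s (_ : s ∈ Finset.univ) => d1 s
      simp only [Finset.sum_add_distrib, Finset.sum_ite_eq, Finset.mem_univ, if_true] at this
      omega
    · have d3 := congrArg (· (false, t)) h0
      have d4 := congrArg (· (true, t)) h0
      have := h1 t
      simp only [Finsupp.add_apply, single_apply, Prod.mk.injEq, true_and, Bool.true_eq_false,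
        Bool.false_eq_true, false_and, if_false, eta] at d3 d4 this ⊢
      omega
    · have := d1 (cl a + 1)
      rw [if_neg (cl_succ_ne he _).symm, if_pos rfl] at this
      omega
    · have := Finset.sum_congr rfl fun s (_ : s ∈ Finset.univ) =>
        congrArg (fun x : ℕ => (x : ZMod (p ^ e - 1)) * p ^ s.val) (d1 s)
      simp only [Nat.cast_add, add_mul, Finset.sum_add_distrib, Nat.cast_ite, ite_mul,
        Nat.cast_zero, zero_mul, Finset.sum_ite_eq, Finset.mem_univ, if_true, h4, Nat.cast_one,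
        one_mul, zero_add] at this
      rw [show cl a + 1 = ((cl a).val + 1 : ℕ) by simp, ZMod.val_natCast,
        pow_mod_cast _ _ _ hp.pos, pow_succ'] at this
      exact add_eq_right.1 this
  have e3 := h1 a
  rw [eta] at e3
  obtain ⟨m'', d1, d2⟩ := (carry he hp hn hS hT hR c3 (hD _ h1) (fun t t' _ => by rw [h1, h1])
    (fun t => .inr (.inl (h1 t))) (k := false) hab hcl c6 hb (by omega)).2 ⟨by
      change m' (true, a) = 0; omega, t2⟩
  obtain ⟨m₁, d3, d4, d5⟩ := key m'' d1
  refine ⟨m₁, d3, d4, d5.trans (mul_left_cancel₀ (cast_ne hb (c3 _)) ?_)⟩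
  have d6 : ((m' (false, b) + (m' (true, b) + 1) : ℕ) : K) = 0 := by
    rw [show m' (false, b) + (m' (true, b) + 1) = p by omega, CharP.cast_eq_zero]
  rw [Nat.cast_add] at d6
  rw [Bool.not_false] at d2
  linear_combination c m'' * d6 - d2

theorem jobC2 : JobC2.{v} := fun p e n _ K _ _ c D hp hn hS hT hR => by
  have he0 : 0 < e := Nat.pos_of_mul_pos_right (NeZero.pos (e * n))
  have : NeZero e := ⟨he0.ne'⟩
  refine ⟨fun m hm hd ⟨t₀, h0⟩ ⟨t₁, h1⟩ t => ?_, fun hD m m' j j' h => ?_⟩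
  · have := hT.tri m hm hd t
    rw [part1 hp hn hS hT hR hm hd t₀ t] at h0
    rw [part1 hp hn hS hT hR hm hd t₁ t] at h1
    omega
  have hD' : ∀ m : Mon e n, (∀ t, eta m t = p - 1) → dg m = D := fun m h => by
    simp [dg_eta, h, hD]
  rcases (show e = 1 ∨ 2 ≤ e by omega) with rfl | he
  · refine conn hp hT (hD' m j.eta) j.eta j'.eta fun s => ?_
    have := h.resolve_left (by omega)
    rwa [← sum_cd, ← sum_cd, Fintype.sum_subsingleton _ s, Fintype.sum_subsingleton _ s] at this
  have h1 : ∀ (m : Mon e n) k, (∃ t, m (k, t) ≠ 0) → ∃ s, cd m k s ≠ 0 := fun m k ⟨t, ht⟩ =>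
    ⟨cl t, fun h => ht (Finset.sum_eq_zero_iff.1 h t (by simp))⟩
  have h2 : ∀ m : Mon e n, J0 p m → ∃ m', (∀ t, eta m' t = p - 1) ∧ (∀ s, cd m' false s = p - 1) ∧
      c m' = c m := fun m j => part2 he hp hn hS hT hR hD' j.eta (h1 _ _ j.x0) (h1 _ _ j.y0) (by
    rw [← vc_cast hp.pos, ZMod.natCast_eq_zero_iff]; exact j.dvd)
  obtain ⟨m₁, a1, a2, a3⟩ := h2 m j
  obtain ⟨m₂, b1, b2, b3⟩ := h2 m' j'
  rw [← a3, ← b3]
  exact conn hp hT (hD' _ a1) a1 b1 fun s => by rw [a2, b2]

end H86.SG
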